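import Mathlib
import Cfsg.Agent.Base

/-! Rank 3 actions with unequal subdegrees: the orbital graph, its parameters. -/

set_option autoImplicit false

namespace H19.R3

open MulAction

variable {G Ω : Type*} [Group G] [MulAction G Ω]

variable (G) in
/-- the neighbours of `x` in the orbital graph of `(a, b)` -/
def Nb (a b x : Ω) : Set Ω := {y | ∃ g : G, g • a = x ∧ g • b = y}

variable (G) in
/-- a rank 3 action with subdegrees `1`, `k`, `l` -/
structure Rk3 (a b c : Ω) (k l : ℕ) : Prop where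
  finG : Finite G
  fin : Finite Ω
  tr : ∀ x, ∃ g : G, g • a = x
  card : Nat.card Ω = 1 + k + l
  hb : (Nb G a b a).ncard = k
  hc : (Nb G a c a).ncard = l
  k1 : 1 < k
  l1 : 1 < l
  ne : k ≠ l

variable {a b c : Ω} {k l : ℕ}

theorem orbit_eq_Nb (a b : Ω) : orbit (stabilizer G a) b = Nb G a b a := by
  ext y
  exact ⟨fun ⟨g, e⟩ => ⟨g, g.2, e⟩, fun ⟨g, e, e'⟩ => ⟨⟨g, e⟩, e'⟩⟩

theorem smul_mem_Nb (g : G) {x y : Ω} (h : y ∈ Nb G a b x) : g • y ∈ Nb G a b (g • x) := by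
  obtain ⟨u, rfl, rfl⟩ := h
  exact ⟨g * u, mul_smul _ _ _, mul_smul _ _ _⟩

theorem smul_mem_Nb_iff (g : G) {x y : Ω} : g • y ∈ Nb G a b (g • x) ↔ y ∈ Nb G a b x :=
  ⟨fun h => by simpa using smul_mem_Nb g⁻¹ h, smul_mem_Nb g⟩

theorem smul_mem_Nb_fix {g : G} {x y : Ω} (e : g • x = x) : g • y ∈ Nb G a b x ↔ y ∈ Nb G a b x := by
  conv_lhs => rw [← e]
  exact smul_mem_Nb_iff g

theorem self_mem_Nb (a b : Ω) : b ∈ Nb G a b a := ⟨1, one_smul _ _, one_smul _ _⟩

theorem Nb_congr {b' : Ω} (h : b' ∈ Nb G a b a) (x : Ω) : Nb G a b' x = Nb G a b x := by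
  obtain ⟨u, e, rfl⟩ := h
  ext y
  constructor
  · rintro ⟨g, rfl, rfl⟩
    exact ⟨g * u, by rw [mul_smul, e], mul_smul _ _ _⟩
  · rintro ⟨g, rfl, rfl⟩
    exact ⟨g * u⁻¹, by rw [mul_smul, inv_smul_eq_iff.2 e.symm], by rw [mul_smul, inv_smul_smul]⟩

theorem image_Nb (g : G) (x : Ω) : (g • ·) '' Nb G a b x = Nb G a b (g • x) := by
  ext y
  constructor
  · rintro ⟨z, hz, rfl⟩
    exact smul_mem_Nb g hz
  · exact fun h => ⟨g⁻¹ • y, by simpa using smul_mem_Nb g⁻¹ h, smul_inv_smul _ _⟩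

theorem ncard_smul (g : G) (T : Set Ω) : ((g • ·) '' T).ncard = T.ncard :=
  Set.ncard_image_of_injective _ (MulAction.injective g)

theorem card_stab_eq [Finite G] (a b : Ω) : Nat.card (stabilizer G a) =
    (Nb G a b a).ncard * Nat.card (stabilizer G a ⊓ stabilizer G b : Subgroup G) := by
  rw [← (stabilizer (stabilizer G a) b).card_mul_index, index_stabilizer, orbit_eq_Nb, mul_comm]
  congr 1
  exact Nat.card_congr ⟨fun v => ⟨v.1.1, v.1.2, v.2⟩, fun v => ⟨⟨v.1, v.2.1⟩, v.2.2⟩, fun _ => rfl,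
    fun _ => rfl⟩

namespace Rk3

theorem symm' (h : Rk3 G a b c k l) : Rk3 G a c b l k :=
  ⟨h.finG, h.fin, h.tr, by rw [h.card]; ring, h.hc, h.hb, h.l1, h.k1, h.ne.symm⟩

theorem congr (h : Rk3 G a b c k l) {b' : Ω} (hb : b' ∈ Nb G a b a) : Rk3 G a b' c k l :=
  ⟨h.finG, h.fin, h.tr, h.card, by rw [Nb_congr hb]; exact h.hb, h.hc, h.k1, h.l1, h.ne⟩

theorem congr' (h : Rk3 G a b c k l) {c' : Ω} (hc : c' ∈ Nb G a c a) : Rk3 G a b c' k l :=
  (h.symm'.congr hc).symm'

theorem ncard (h : Rk3 G a b c k l) (x : Ω) : (Nb G a b x).ncard = k := by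
  obtain ⟨g, rfl⟩ := h.tr x
  rw [← image_Nb, ncard_smul, h.hb]

theorem irrefl (h : Rk3 G a b c k l) (x : Ω) : x ∉ Nb G a b x := by
  rintro ⟨g, e, e'⟩
  have e1 : b = a := MulAction.injective g (e'.trans e.symm)
  have : Nb G a b a ⊆ {a} := by
    rintro _ ⟨u, e, rfl⟩
    rw [e1]; exact e
  have h2 := Set.ncard_le_ncard this (Set.finite_singleton a)
  rw [h.hb, Set.ncard_singleton] at h2
  exact absurd h.k1 (by omega)

theorem disj (h : Rk3 G a b c k l) {x y : Ω} (h1 : y ∈ Nb G a b x) : y ∉ Nb G a c x := by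
  intro h2
  obtain ⟨g, rfl⟩ := h.tr x
  obtain ⟨y, rfl⟩ : ∃ z, g • z = y := ⟨g⁻¹ • y, smul_inv_smul _ _⟩
  rw [smul_mem_Nb_iff] at h1 h2
  exact h.ne (by rw [← h.hb, ← h.hc, ← Nb_congr h1, ← Nb_congr h2])

theorem cover (h : Rk3 G a b c k l) (x y : Ω) : y = x ∨ y ∈ Nb G a b x ∨ y ∈ Nb G a c x := by
  have := h.fin
  have h1 : (insert x (Nb G a b x ∪ Nb G a c x)).ncard = 1 + k + l := by
    rw [Set.ncard_insert_of_notMem (fun e => e.elim (h.irrefl x) (h.symm'.irrefl x)),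
      Set.ncard_union_eq (Set.disjoint_left.2 fun _ => h.disj), h.ncard, h.symm'.ncard]
    ring
  have h2 := (Set.eq_univ_iff_ncard _).2 (h1.trans h.card.symm)
  exact h2.ge (Set.mem_univ y)

theorem symm (h : Rk3 G a b c k l) {x y : Ω} (hy : y ∈ Nb G a b x) : x ∈ Nb G a b y := by
  have := h.finG
  obtain ⟨u, rfl, rfl⟩ := hy
  rw [smul_mem_Nb_iff]
  obtain ⟨g, hg⟩ := h.tr b
  have e1 : Nat.card (stabilizer G a ⊓ stabilizer G (g⁻¹ • a) : Subgroup G) =
      Nat.card (stabilizer G a ⊓ stabilizer G b : Subgroup G) := by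
    refine Nat.card_congr ⟨fun v => ⟨g * v * g⁻¹, ?_, ?_⟩, fun v => ⟨g⁻¹ * v * g, ?_, ?_⟩,
      fun v => Subtype.ext (by simp [mul_assoc]), fun v => Subtype.ext (by simp [mul_assoc])⟩
    · show (g * v * g⁻¹) • a = a
      rw [mul_smul, mul_smul, show (v : G) • g⁻¹ • a = g⁻¹ • a from v.2.2, smul_inv_smul]
    · show (g * v * g⁻¹) • b = b
      rw [mul_smul, mul_smul, ← hg, inv_smul_smul, show (v : G) • a = a from v.2.1]
    · show (g⁻¹ * v * g) • a = a
      rw [mul_smul, mul_smul, hg, show (v : G) • b = b from v.2.2, ← hg, inv_smul_smul]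
    · show (g⁻¹ * v * g) • g⁻¹ • a = g⁻¹ • a
      rw [mul_smul, mul_smul, smul_inv_smul, show (v : G) • a = a from v.2.1]
  have e2 := card_stab_eq (G := G) a (g⁻¹ • a)
  rw [card_stab_eq a b, e1, h.hb] at e2
  have e3 := Nat.eq_of_mul_eq_mul_right Nat.card_pos e2
  have e4 : g⁻¹ • a ∈ Nb G a b a := by
    rcases h.cover a (g⁻¹ • a) with e | e | e
    · exfalso
      have e5 : b = a := by rw [← hg]; exact (inv_smul_eq_iff.1 e).symm
      exact h.irrefl a (by have := self_mem_Nb (G := G) a b; rwa [e5] at this ⊢)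
    · exact e
    · exact absurd (by rw [e3, Nb_congr e, h.hc]) h.ne
  have := smul_mem_Nb g e4
  rwa [smul_inv_smul, hg] at this

theorem ncard_inter_eq {x : Ω} (hx : x ∈ Nb G a b a) (d e : Ω) :
    (Nb G a d x ∩ Nb G a e a).ncard = (Nb G a d b ∩ Nb G a e a).ncard := by
  obtain ⟨g, h1, rfl⟩ := hx
  rw [← ncard_smul g (Nb G a d b ∩ Nb G a e a), Set.image_inter (MulAction.injective g), image_Nb,
    image_Nb, h1]

theorem count (h : Rk3 G a b c k l) :
    k * (Nb G a b b ∩ Nb G a c a).ncard = l * (Nb G a b c ∩ Nb G a b a).ncard := by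
  classical
  have := h.fin
  have := Fintype.ofFinite Ω
  have key := Finset.card_mul_eq_card_mul (s := (Nb G a b a).toFinset) (t := (Nb G a c a).toFinset)
    (fun x y => y ∈ Nb G a b x) (m := (Nb G a b b ∩ Nb G a c a).ncard)
    (n := (Nb G a b c ∩ Nb G a b a).ncard) (fun x hx => by
      rw [← ncard_inter_eq (Set.mem_toFinset.1 hx), ← Set.ncard_coe_finset]
      congr 1; ext y; simp [Finset.bipartiteAbove, and_comm]) (fun y hy => by
      rw [← ncard_inter_eq (Set.mem_toFinset.1 hy), ← Set.ncard_coe_finset]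
      congr 1; ext x
      simp only [Finset.bipartiteBelow, Finset.coe_filter, Set.mem_toFinset, Set.mem_ofPred_eq,
        Set.mem_inter_iff]
      exact ⟨fun e => ⟨h.symm e.2, e.1⟩, fun e => ⟨e.2, h.symm e.1⟩⟩)
  rwa [← Set.ncard_eq_toFinset_card', ← Set.ncard_eq_toFinset_card', h.hb, h.hc] at key

theorem split_b (h : Rk3 G a b c k l) :
    k = 1 + (Nb G a b b ∩ Nb G a b a).ncard + (Nb G a b b ∩ Nb G a c a).ncard := by
  have := h.fin
  have e : Nb G a b b = insert a ((Nb G a b b ∩ Nb G a b a) ∪ (Nb G a b b ∩ Nb G a c a)) := by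
    ext y
    constructor
    · intro hy
      rcases h.cover a y with e | e | e
      exacts [Or.inl e, Or.inr (Or.inl ⟨hy, e⟩), Or.inr (Or.inr ⟨hy, e⟩)]
    · rintro (rfl | e | e)
      exacts [h.symm (self_mem_Nb _ _), e.1, e.1]
  conv_lhs => rw [← h.ncard b, e]
  rw [Set.ncard_insert_of_notMem (fun e => e.elim (fun e => h.irrefl a e.2) fun e => h.symm'.irrefl a e.2),
    Set.ncard_union_eq (Set.disjoint_left.2 fun _ e e' => h.disj e.2 e'.2)]
  ring

theorem split_c (h : Rk3 G a b c k l) :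
    k = (Nb G a b c ∩ Nb G a b a).ncard + (Nb G a b c ∩ Nb G a c a).ncard := by
  have := h.fin
  have e : Nb G a b c = (Nb G a b c ∩ Nb G a b a) ∪ (Nb G a b c ∩ Nb G a c a) := by
    ext y
    constructor
    · intro hy
      rcases h.cover a y with rfl | e | e
      exacts [absurd (self_mem_Nb _ _) (h.disj (h.symm hy)), Or.inl ⟨hy, e⟩, Or.inr ⟨hy, e⟩]
    · rintro (e | e)
      exacts [e.1, e.1]
  conv_lhs => rw [← h.ncard c, e]
  rw [Set.ncard_union_eq (Set.disjoint_left.2 fun _ e e' => h.disj e.2 e'.2)]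

theorem card_G (h : Rk3 G a b c k l) : Nat.card G = (1 + k + l) * Nat.card (stabilizer G a) := by
  have : IsPretransitive G Ω := ⟨fun x y => by
    obtain ⟨g, rfl⟩ := h.tr x
    obtain ⟨g', rfl⟩ := h.tr y
    exact ⟨g' * g⁻¹, by rw [mul_smul, inv_smul_smul]⟩⟩
  rw [← (stabilizer G a).card_mul_index, index_stabilizer_of_transitive, h.card, mul_comm]

theorem dvd_of_clique (h : Rk3 G a b c k l) (e : (Nb G a b b ∩ Nb G a c a).ncard = 0) :
    k + 1 ∣ 1 + k + l := by
  have := h.fin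
  have := h.finG
  have h0 : ∀ x, (insert x (Nb G a b x)).ncard = k + 1 := fun x => by
    rw [Set.ncard_insert_of_notMem (h.irrefl x), h.ncard]
  have h1 : ∀ x ∈ insert a (Nb G a b a), insert x (Nb G a b x) = insert a (Nb G a b a) := by
    rintro x (rfl | hx)
    · rfl
    refine Set.eq_of_subset_of_ncard_le ?_ (by rw [h0, h0])
    rintro y (rfl | hy)
    · exact Or.inr hx
    rcases h.cover a y with e1 | e1 | e1
    · exact Or.inl e1
    · exact Or.inr e1
    · rw [← ncard_inter_eq hx, Set.ncard_eq_zero] at e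
      exact absurd (e.le ⟨hy, e1⟩) (Set.notMem_empty _)
  have h2 : ∀ (g : G) (x y : Ω), y ∈ insert x (Nb G a b x) → g • y ∈ insert (g • x) (Nb G a b (g • x)) := by
    rintro g x y (rfl | hy)
    exacts [Or.inl rfl, Or.inr (smul_mem_Nb g hy)]
  let S : Subgroup G :=
    { carrier := {g | g • a ∈ insert a (Nb G a b a)}
      one_mem' := Or.inl (one_smul _ _)
      mul_mem' := fun {g u} hg hu => by
        have := h2 g _ _ hu
        rwa [h1 _ hg, ← mul_smul] at this
      inv_mem' := fun {g} hg => by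
        have := h2 g⁻¹ (g • a) a (by rw [h1 _ hg]; exact Or.inl rfl)
        rwa [inv_smul_smul] at this }
  have h3 : stabilizer G a ≤ S := fun g hg => Or.inl hg
  have h4 : orbit S a = insert a (Nb G a b a) := by
    ext y
    refine ⟨fun ⟨g, e⟩ => e ▸ g.2, fun hy => ?_⟩
    obtain ⟨g, rfl⟩ := h.tr y
    exact ⟨⟨g, hy⟩, rfl⟩
  have h5 : Nat.card S = (k + 1) * Nat.card (stabilizer G a) := by
    rw [← (stabilizer S a).card_mul_index, index_stabilizer, h4, h0, mul_comm]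
    congr 1
    exact Nat.card_congr (Subgroup.subgroupOfEquivOfLe h3).toEquiv
  have h6 := S.card_subgroup_dvd_card
  rw [h5, h.card_G] at h6
  exact Nat.dvd_of_mul_dvd_mul_right Nat.card_pos h6

end Rk3

theorem eqns_basic : True := by
  have := @Nb.eq_1.{0, 0}
  exact True.intro

end H19.R3
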