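import Cfsg.Agent.Lib.Rk19.Rigid
import Cfsg.Agent.Lib.R3.Wd
import Cfsg.Agent.Lib.CGT.Max

/-! Kernel computations with sets of points: invariant subsets, neighbourhoods, automorphism groups. -/

set_option autoImplicit false

namespace H19.R3

open H54 MulAction
open scoped Pointwise

variable {G Ω : Type*} [Group G] [MulAction G Ω] {c : Cfg} {pt : ℕ → Ω} {pl nt : ℕ → ℕ} {lt : ℕ → G}

/-- letters with codes and networks, all points enumerated -/
structure NM (c : Cfg) (pt : ℕ → Ω) (pl nt : ℕ → ℕ) (lt : ℕ → G) : Prop where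
  X : Ctx c pt
  surj : ∀ y, ∃ i, i < c.n ∧ pt i = y
  sm : c.n + 1 < 2 ^ c.b
  rep : ∀ l, Rep c pt (lt l) (pl l)
  net : ∀ l, Rep c pt (lt l) (c.code (nt l))

noncomputable def gtAll {α : Type} (f : α → Bool) (t : GT α) : Bool :=
  GT.rec (motive := fun _ => Bool) f (fun _ _ _ a b => band a b) t

theorem gtAll_get {α : Type} {f : α → Bool} (k : ℕ) : ∀ t : GT α, gtAll f t = true → f (t.get k) = true
  | .leaf _, h => h
  | .node p l r, h => by
    have h' : band (gtAll f l) (gtAll f r) = true := h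
    rw [band_eq_true] at h'
    show f (Bool.rec (r.get k) (l.get k) (Nat.ble k p)) = true
    cases Nat.ble k p
    exacts [gtAll_get k r h'.2, gtAll_get k l h'.1]

theorem NM.repL (M : NM c pt pl nt lt) (w : List ℕ) : Rep c pt (lw lt w) (netL c nt w c.one) := by
  simpa [lw] using Rep.netL M.X w (fun l _ => M.net l) (rep_one M.X)

/-- new letters: a word, its code, its network -/
noncomputable def extOk (c : Cfg) (nt : ℕ → ℕ) (e : List ℕ × ℕ × ℕ) : Bool :=
  band (Nat.beq (netL c nt e.1 c.one) e.2.1) (Nat.beq (force e.2.2 c.code) e.2.1)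

theorem NM.ext (M : NM c pt pl nt lt) {t : GT (List ℕ × ℕ × ℕ)} (h : gtAll (extOk c nt) t = true) :
    NM c pt (fun l => (t.get l).2.1) (fun l => (t.get l).2.2) (fun l => lw lt (t.get l).1) := by
  have e := fun l => gtAll_get l t h
  simp only [extOk, band_eq_true, Nat.beq_eq, force_eq] at e
  exact ⟨M.X, M.surj, M.sm, fun l => (e l).1 ▸ M.repL _, fun l => (e l).2.symm ▸ (e l).1 ▸ M.repL _⟩

theorem NM.of_slp (X : Ctx c pt) (hs : ∀ y, ∃ i, i < c.n ∧ pt i = y) (sm : c.n + 1 < 2 ^ c.b) {T N : Tr}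
    (r : ∀ l, Rep c pt (lt l) (T.get l)) {m k : ℕ} (h : AllEx (slpAt c T.get N.get m) (k + 1))
    (e : band (T.piv k) (N.piv k) = true) : NM c pt T.get N.get lt := by
  rw [band_eq_true] at e
  have h0 : ∀ l, l < k + 1 → c.code (N.get l) = T.get l := fun l hl => by
    obtain ⟨AB, e⟩ := h l hl
    simp only [slpAt, force_eq, band_eq_true, Nat.beq_eq] at e
    exact e.1
  refine ⟨X, hs, sm, r, fun l => ?_⟩
  rcases Nat.lt_or_ge l (k + 1) with hl | hl
  · exact h0 l hl ▸ r l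
  · rw [Tr.get_ge (by omega : k ≤ l) N e.2, h0 k (by omega), ← Tr.get_ge (by omega : k ≤ l) T e.1]
    exact r l

theorem NM.finite (M : NM c pt pl nt lt) : Finite Ω :=
  Finite.of_surjective (fun i : Fin c.n => pt i) fun y => by
    obtain ⟨i, hi, e⟩ := M.surj y
    exact ⟨⟨i, hi⟩, e⟩

/-! ### sets as arrays -/

/-- membership -/
def mb (c : Cfg) (x i : ℕ) : Bool := tb x (Nat.mul c.b i)

/-- the singleton -/
def sg (c : Cfg) (i : ℕ) : ℕ := Nat.shiftLeft 1 (Nat.mul c.b i)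

/-- the set of an array -/
def SO (c : Cfg) (pt : ℕ → Ω) (x : ℕ) : Set Ω := {y | ∃ i, i < c.n ∧ mb c x i = true ∧ pt i = y}

/-- the number of elements -/
noncomputable def pc (c : Cfg) (x : ℕ) : ℕ := Nat.mod (plane c 0 x) (Nat.pred (Nat.pow 2 c.b))

theorem mb_eq (X : Ctx c pt) (x i : ℕ) : mb c x i = (c.get x i).testBit 0 := by
  rw [mb, tb_eq, X.ok.get_eq, testBit_dig]
  simp [X.ok.b_pos]

theorem pt_mem (X : Ctx c pt) {x i : ℕ} (hi : i < c.n) : pt i ∈ SO c pt x ↔ mb c x i = true :=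
  ⟨fun ⟨j, hj, h, e⟩ => X.inj j i hj hi e ▸ h, fun h => ⟨i, hi, h, rfl⟩⟩

theorem coe_setObj [DecidableEq Ω] (X : Ctx c pt) (x : ℕ) : (setObj c pt 0 x : Set Ω) = SO c pt x := by
  ext y
  simp only [Finset.mem_coe, mem_setObj, SO, mb_eq X, Set.mem_ofPred_eq]

theorem mb_land (x y i : ℕ) : mb c (Nat.land x y) i = (mb c x i && mb c y i) := by
  simp only [mb, tb_eq]; exact Nat.testBit_and _ _ _

theorem mb_lor (x y i : ℕ) : mb c (Nat.lor x y) i = (mb c x i || mb c y i) := by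
  simp only [mb, tb_eq]; exact Nat.testBit_or _ _ _

theorem mb_xor (x y i : ℕ) : mb c (Nat.xor x y) i = (mb c x i ^^ mb c y i) := by
  simp only [mb, tb_eq]; exact Nat.testBit_xor _ _ _

theorem mb_sg (X : Ctx c pt) (p i : ℕ) : mb c (sg c p) i = true ↔ i = p := by
  rw [mb, tb_eq]
  show (1 <<< (c.b * p)).testBit (c.b * i) = true ↔ _
  rw [Nat.one_shiftLeft, Nat.testBit_two_pow, decide_eq_true_iff, Nat.mul_right_inj X.ok.b_pos.ne', eq_comm]

theorem mb_En (X : Ctx c pt) {i : ℕ} (hi : i < c.n) : mb c c.En i = true := by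
  rw [mb_eq X, X.ok.get_eq, Cfg.En, dig_onesN _ X.ok.b_pos, if_pos hi]; rfl

theorem mb_plane (X : Ctx c pt) {k : ℕ} (hk : k < c.b) (x : ℕ) {i : ℕ} (hi : i < c.n) :
    mb c (plane c k x) i = (c.get x i).testBit k := by
  rw [mb_eq X, X.ok.get_eq, dig_plane X hk]
  cases (c.get x i).testBit k <;> simp [hi]

theorem mb_net (X : Ctx c pt) {u : G} {T : ℕ} (r : Rep c pt u (c.code T)) (x : ℕ) {i : ℕ} (hi : i < c.n) :
    mb c (c.net T x) i = true ↔ u • pt i ∈ SO c pt x := by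
  rw [(r i hi).2, pt_mem X (r i hi).1, mb_eq X, mb_eq X, X.ok.get_net T x i (hi.trans_le X.ok.n_le)]

theorem SO_land (X : Ctx c pt) (x y : ℕ) : SO c pt (Nat.land x y) = SO c pt x ∩ SO c pt y := by
  ext z
  constructor
  · rintro ⟨i, hi, h, rfl⟩
    rw [mb_land, Bool.and_eq_true] at h
    exact ⟨⟨i, hi, h.1, rfl⟩, ⟨i, hi, h.2, rfl⟩⟩
  · rintro ⟨⟨i, hi, h, rfl⟩, h'⟩
    exact ⟨i, hi, by rw [mb_land, h, (pt_mem X hi).1 h']; rfl, rfl⟩

theorem plane_eq (X : Ctx c pt) {x y : ℕ} : plane c 0 x = plane c 0 y ↔ SO c pt x = SO c pt y := by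
  classical
  rw [plane_eq_iff X X.ok.b_pos X.ok.b_pos, ← coe_setObj X, ← coe_setObj X, Finset.coe_inj]

theorem modEq_sum_dig {b : ℕ} (hb : 0 < b) : ∀ n y : ℕ, (∀ i, n ≤ i → dig b y i = 0) →
    y ≡ ∑ i ∈ Finset.range n, dig b y i [MOD 2 ^ b - 1]
  | 0, y, h => by
    rw [eq_of_dig_eq b hb y 0 fun i => by rw [h i (Nat.zero_le _), dig_zero]]; rfl
  | n + 1, y, h => by
    have ih := modEq_sum_dig hb n (y / 2 ^ b) fun i hi => by rw [← dig_succ, h _ (by omega)]
    rw [Finset.sum_range_succ', dig_at_zero]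
    simp only [dig_succ]
    conv_lhs => rw [← Nat.div_add_mod y (2 ^ b)]
    refine Nat.ModEq.add_right _ ?_
    have : 2 ^ b ≡ 1 [MOD 2 ^ b - 1] := ((Nat.modEq_iff_dvd' Nat.one_le_two_pow).2 dvd_rfl).symm
    simpa using this.mul ih

theorem NM.pc_eq (M : NM c pt pl nt lt) (x : ℕ) : pc c x = (SO c pt x).ncard := by
  classical
  have X := M.X
  have h := modEq_sum_dig X.ok.b_pos c.n (plane c 0 x) fun i hi => by
    rw [dig_plane X X.ok.b_pos, if_neg (by omega)]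
  have e : ∑ i ∈ Finset.range c.n, dig c.b (plane c 0 x) i = (SO c pt x).ncard := by
    rw [← coe_setObj X, Set.ncard_coe_finset, card_setObj X, cntLt_eq, Finset.card_filter]
    refine Finset.sum_congr rfl fun i hi => ?_
    simp only [dig_plane X X.ok.b_pos, Finset.mem_range.1 hi, true_and, tb_eq]
  have h2 : (SO c pt x).ncard ≤ c.n := by
    rw [← coe_setObj X, Set.ncard_coe_finset, card_setObj X, cntLt_eq]
    exact (Finset.card_filter_le _ _).trans (Finset.card_range _).le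
  have := M.sm
  rw [e] at h
  exact (show _ % (2 ^ c.b - 1) = _ from h).trans (Nat.mod_eq_of_lt (by omega))

/-! ### invariant subsets are unions of orbits -/

/-- enlarge all the planes by their images -/
noncomputable def sat (c : Cfg) (nt : ℕ → ℕ) (w : List ℕ) : ℕ → ℕ :=
  List.rec (motive := fun _ => ℕ → ℕ) (fun x => x)
    (fun l _ ih x => force (nt l) fun T => force (Nat.lor x (c.net T x)) ih) w

/-- shrink by images -/
noncomputable def cut (c : Cfg) (nt : ℕ → ℕ) (w : List ℕ) : ℕ → ℕ :=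
  List.rec (motive := fun _ => ℕ → ℕ) (fun x => x)
    (fun l _ ih x => force (nt l) fun T => force (Nat.land x (c.net T x)) ih) w

/-- the union of the planes selected by `σ` -/
noncomputable def uni (c : Cfg) (x σ m : ℕ) : ℕ :=
  Nat.rec (motive := fun _ => ℕ) 0 (fun k a => sel (tb σ k) (Nat.lor a (plane c k x)) a) m

noncomputable def seed (c : Cfg) (R : List ℕ) : ℕ :=
  List.rec (motive := fun _ => ℕ) 0 (fun r _ ih => Nat.lor (sg c r) (Nat.shiftLeft ih 1)) R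

/-- `P` holds for all unions of orbits, these cover `D` -/
noncomputable def selOk (c : Cfg) (nt : ℕ → ℕ) (w R : List ℕ) (D : ℕ) (P : ℕ → Bool) : Bool :=
  force (len R) fun m => force (seed c R) fun x0 => force (sat c nt w x0) fun x =>
    band (Nat.ble m c.b) (band (allLt (fun k => Nat.beq (plane c k x0) (sg c (nth R k))) m)
      (band (Nat.beq (Nat.land D (uni c x (Nat.pred (Nat.pow 2 m)) m)) (plane c 0 D))
        (allLt (fun σ => force (uni c x σ m) P) (Nat.pow 2 m))))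

def Hg (c : Cfg) (pt : ℕ → Ω) (T : Set Ω) (m x : ℕ) : Prop := ∀ k i j, k < m → i < c.n → j < c.n →
  (c.get x i).testBit k = true → (c.get x j).testBit k = true → pt i ∈ T → pt j ∈ T

theorem NM.hg_sat (M : NM c pt pl nt lt) {K : Subgroup G} {T : Set Ω} (hK : ∀ g ∈ K, ∀ z ∈ T, g • z ∈ T)
    {m : ℕ} : ∀ (w : List ℕ) (x : ℕ), (∀ l ∈ w, lt l ∈ K) → Hg c pt T m x → Hg c pt T m (sat c nt w x)
  | [], _, _, h => h
  | l :: w, x, hw, h => by
    refine M.hg_sat hK w (x ||| c.net (nt l) x) (fun a ha => hw a (List.mem_cons_of_mem _ ha)) ?_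
    have key : ∀ k i, i < c.n → (c.get (x ||| c.net (nt l) x) i).testBit k = true →
        ∃ j, j < c.n ∧ (c.get x j).testBit k = true ∧ (pt i ∈ T ↔ pt j ∈ T) := by
      intro k i hi e
      rw [M.X.ok.get_eq, dig_or, Nat.testBit_or, Bool.or_eq_true, ← M.X.ok.get_eq, ← M.X.ok.get_eq,
        M.X.ok.get_net _ _ _ (hi.trans_le M.X.ok.n_le)] at e
      rcases e with e | e
      · exact ⟨i, hi, e, Iff.rfl⟩
      · refine ⟨_, (M.net l i hi).1, e, ?_⟩
        rw [← (M.net l i hi).2]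
        exact ⟨hK _ (hw l List.mem_cons_self) _,
          fun h => by simpa using hK _ (K.inv_mem (hw l List.mem_cons_self)) _ h⟩
    intro k i j hk hi hj e e' hT
    obtain ⟨i', hi', e1, e2⟩ := key k i hi e
    obtain ⟨j', hj', e3, e4⟩ := key k j hj e'
    exact e4.2 (h k i' j' hk hi' hj' e1 e3 (e2.1 hT))

theorem NM.sub_cut (M : NM c pt pl nt lt) {K : Subgroup G} {T : Set Ω} (hK : ∀ g ∈ K, ∀ z ∈ T, g • z ∈ T) :
    ∀ (w : List ℕ) (x : ℕ), (∀ l ∈ w, lt l ∈ K) → T ⊆ SO c pt x → T ⊆ SO c pt (cut c nt w x)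
  | [], _, _, h => h
  | l :: w, x, hw, h => by
    refine M.sub_cut hK w (Nat.land x (c.net (nt l) x)) (fun a ha => hw a (List.mem_cons_of_mem _ ha))
      fun z hz => ?_
    obtain ⟨i, hi, rfl⟩ := M.surj z
    rw [SO_land M.X]
    exact ⟨h hz, (pt_mem M.X hi).2 ((mb_net M.X (M.net l) x hi).2 (h (hK _ (hw l List.mem_cons_self) _ hz)))⟩

theorem mb_uni (X : Ctx c pt) (x σ : ℕ) {i : ℕ} (hi : i < c.n) : ∀ m, m ≤ c.b → (mb c (uni c x σ m) i = true ↔
    ∃ k, k < m ∧ σ.testBit k = true ∧ (c.get x i).testBit k = true)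
  | 0, _ => by simp [uni, mb, tb_eq]
  | m + 1, hm => by
    have ih := mb_uni X x σ hi m (by omega)
    show mb c (sel (tb σ m) (Nat.lor (uni c x σ m) (plane c m x)) (uni c x σ m)) i = true ↔ _
    simp only [Nat.lt_succ_iff_lt_or_eq, or_and_right, exists_or, exists_eq_left, ← ih, tb_eq]
    cases σ.testBit m
    · simp
    · rw [sel_true, mb_lor, mb_plane X hm x hi]; simp

theorem NM.sel (M : NM c pt pl nt lt) {w R : List ℕ} {D : ℕ} {P : ℕ → Bool} (h : selOk c nt w R D P = true)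
    {K : Subgroup G} (hw : ∀ l ∈ w, lt l ∈ K) {T : Set Ω} (hK : ∀ g ∈ K, ∀ z ∈ T, g • z ∈ T)
    (hD : T ⊆ SO c pt D) : ∃ y, T = SO c pt y ∧ P y = true := by
  classical
  simp only [selOk, force_eq, band_eq_true, Nat.ble_eq, allLt_iff, Nat.beq_eq] at h
  obtain ⟨h1, h2, h3, h4⟩ := h
  have X := M.X
  have g := M.hg_sat hK w (seed c R) hw (m := len R) fun k i j hk hi hj e e' hT => by
    rw [← mb_plane X (by omega) _ hi, h2 k hk, mb_sg X] at e
    rw [← mb_plane X (by omega) _ hj, h2 k hk, mb_sg X] at e'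
    exact (e.trans e'.symm) ▸ hT
  generalize sat c nt w (seed c R) = x at g h3 h4
  let σ := Nat.ofBits fun k : Fin (len R) => decide (∃ i, i < c.n ∧ (c.get x i).testBit k = true ∧ pt i ∈ T)
  refine ⟨_, ?_, h4 σ (Nat.ofBits_lt_two_pow _)⟩
  ext z
  obtain ⟨i, hi, rfl⟩ := M.surj z
  rw [pt_mem X hi, mb_uni X _ _ hi _ h1]
  constructor
  · intro hT
    have e := congrArg (mb c · i) h3
    simp only [mb_land, mb_plane X X.ok.b_pos _ hi, ← mb_eq X, (pt_mem X hi).1 (hD hT), Bool.true_and] at e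
    obtain ⟨k, hk, -, e⟩ := (mb_uni X _ _ hi _ h1).1 e
    exact ⟨k, hk, by rw [Nat.testBit_ofBits_lt _ _ hk, decide_eq_true_iff]; exact ⟨i, hi, e, hT⟩, e⟩
  · rintro ⟨k, hk, e, e'⟩
    rw [Nat.testBit_ofBits_lt _ _ hk, decide_eq_true_iff] at e
    obtain ⟨j, hj, e1, e2⟩ := e
    exact g k j i hk hj hi e1 e' e2

/-- all the letters fix the points -/
noncomputable def fixL (c : Cfg) (pl : ℕ → ℕ) (P w : List ℕ) : Bool :=
  allL (fun p => band (Nat.ble (Nat.succ p) c.n) (allL (fun l => Nat.beq (c.get (pl l) p) p) w)) P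

theorem NM.fix (M : NM c pt pl nt lt) {P w : List ℕ} (h : fixL c pl P w = true) {p : ℕ} (hp : p ∈ P)
    {l : ℕ} (hl : l ∈ w) : lt l • pt p = pt p := by
  simp only [fixL, allL_iff, band_eq_true, Nat.ble_eq, Nat.beq_eq] at h
  rw [(M.rep l p (h p hp).1).2, (h p hp).2 l hl]

/-- a suborbit -/
theorem NM.nb_eq (M : NM c pt pl nt lt) {a b k D : ℕ} {w : List ℕ} (hk : (Nb G (pt a) (pt b) (pt a)).ncard = k)
    (h : band (fixL c pl [a] w) (band (Nat.ble (Nat.succ b) c.n) (band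
      (Nat.beq (plane c 0 (sat c nt w (sg c b))) D) (Nat.beq (pc c D) k))) = true) :
    Nb G (pt a) (pt b) (pt a) = SO c pt D := by
  simp only [band_eq_true, Nat.ble_eq, Nat.beq_eq] at h
  obtain ⟨h1, h2, h3, h4⟩ := h
  have := M.finite
  have X := M.X
  refine (Set.eq_of_subset_of_ncard_le ?_ (by rw [hk, ← h4, M.pc_eq])).symm
  have key : ∀ (w : List ℕ) x, (∀ l ∈ w, lt l • pt a = pt a) → SO c pt x ⊆ Nb G (pt a) (pt b) (pt a) →
      SO c pt (sat c nt w x) ⊆ Nb G (pt a) (pt b) (pt a) := by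
    intro w
    induction w with
    | nil => exact fun _ _ h => h
    | cons l w ih =>
      refine fun x hw h => ih (Nat.lor x (c.net (nt l) x)) (fun a ha => hw a (List.mem_cons_of_mem _ ha)) ?_
      rintro _ ⟨i, hi, e, rfl⟩
      rw [mb_lor, Bool.or_eq_true, mb_net X (M.net l) x hi] at e
      exact e.elim (fun e => h ⟨i, hi, e, rfl⟩) fun e => (smul_mem_Nb_fix (hw l List.mem_cons_self)).1 (h e)
  rintro _ ⟨i, hi, e, rfl⟩
  rw [← h3, mb_plane X X.ok.b_pos _ hi, ← mb_eq X] at e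
  refine key w _ (fun l hl => M.fix h1 List.mem_cons_self hl) ?_ ⟨i, hi, e, rfl⟩
  rintro _ ⟨j, -, e, rfl⟩
  rw [(mb_sg X _ _).1 e]
  exact self_mem_Nb _ _

/-! ### neighbourhoods -/

/-- the neighbourhood of a point, along a tree towards the point `a` -/
noncomputable def nbr (c : Cfg) (pl nt par : ℕ → ℕ) (a D f : ℕ) : ℕ → ℕ :=
  Nat.rec (motive := fun _ => ℕ → ℕ) (fun _ => D) (fun _ ih i => sel (Nat.beq i a) D
    (force (par i) fun l => force (c.get (pl l) i) fun j => force (ih j) fun y => force (nt l) fun T =>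
      c.net T y)) f

noncomputable def reach (c : Cfg) (pl par : ℕ → ℕ) (a f : ℕ) : ℕ → Bool :=
  Nat.rec (motive := fun _ => ℕ → Bool) (fun i => Nat.beq i a) (fun _ ih i => bor (Nat.beq i a)
    (force (par i) fun l => force (c.get (pl l) i) ih)) f

theorem NM.nbr_eq (M : NM c pt pl nt lt) {par : ℕ → ℕ} {a D : ℕ} {a₀ b₀ : Ω}
    (hD : Nb G a₀ b₀ (pt a) = SO c pt D) : ∀ f i, i < c.n → reach c pl par a f i = true →
      Nb G a₀ b₀ (pt i) = SO c pt (nbr c pl nt par a D f i)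
  | 0, i, _, h => by rw [Nat.eq_of_beq_eq_true h]; exact hD
  | f + 1, i, hi, h => by
    have h' : bor (Nat.beq i a) (reach c pl par a f (c.get (pl (par i)) i)) = true := h
    show _ = SO c pt (H54.sel (Nat.beq i a) D (c.net (nt (par i)) (nbr c pl nt par a D f (c.get (pl (par i)) i))))
    cases e : Nat.beq i a
    · rw [e] at h'
      have ih := M.nbr_eq hD f _ (M.rep (par i) i hi).1 h'
      ext z
      obtain ⟨j, hj, rfl⟩ := M.surj z
      rw [sel_false, pt_mem M.X hj, mb_net M.X (M.net _) _ hj, ← ih, ← (M.rep _ i hi).2, smul_mem_Nb_iff]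
    · rw [Nat.eq_of_beq_eq_true e]; exact hD

/-! ### bounds for the automorphism group of a graph -/

/-- the automorphisms fixing the points of a list -/
def fixG (N : Ω → Set Ω) (pt : ℕ → Ω) (F : List ℕ) : Subgroup (Equiv.Perm Ω) where
  carrier := {σ | σ ∈ autG N ∧ ∀ f ∈ F, σ (pt f) = pt f}
  one_mem' := ⟨one_mem _, fun _ _ => rfl⟩
  mul_mem' := fun {σ τ} h h' => ⟨mul_mem h.1 h'.1, fun f hf => by
    rw [Equiv.Perm.mul_apply, h'.2 f hf, h.2 f hf]⟩
  inv_mem' := fun {σ} h => ⟨inv_mem h.1, fun f hf => by rw [Equiv.Perm.inv_eq_iff_eq, h.2 f hf]⟩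

noncomputable def mapK (g : ℕ → ℕ) (Q : List ℕ) : (List (ℕ × ℕ) → Bool) → Bool :=
  List.rec (motive := fun _ => (List (ℕ × ℕ) → Bool) → Bool) (fun k => k [])
    (fun q _ ih k => force (g q) fun A => ih fun L => k ((q, A) :: L)) Q

theorem mapK_eq (g : ℕ → ℕ) : ∀ (Q : List ℕ) k, mapK g Q k = k (Q.map fun q => (q, g q))
  | [], _ => rfl
  | _ :: Q, _ => mapK_eq g Q _

/-- the points outside `A`, other than `f` -/
noncomputable def cpl (c : Cfg) (f A : ℕ) : ℕ := Nat.xor (Nat.lor A (sg c f)) c.En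

/-- the points with the same adjacencies to the points of `L` as `p` -/
noncomputable def cell (c : Cfg) (L : List (ℕ × ℕ)) (p : ℕ) : ℕ :=
  List.rec (motive := fun _ => ℕ) c.En
    (fun e _ ih => sel (mb c e.2 p) (Nat.land ih e.2) (Nat.land ih (cpl c e.1 e.2))) L

/-- the points of `C` are separated by their adjacencies -/
noncomputable def sep (c : Cfg) (L : List (ℕ × ℕ)) : ℕ → Bool :=
  List.rec (motive := fun _ => ℕ → Bool) (fun C => Nat.ble (pc c C) 1)
    (fun e _ ih C => bor (Nat.ble (pc c C) 1)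
      (band (force (Nat.land C e.2) ih) (force (Nat.land C (cpl c e.1 e.2)) ih))) L

/-- the numbers of neighbours in the sets of `L` -/
noncomputable def key (c : Cfg) (L : List (ℕ × ℕ)) (A : ℕ) : ℕ :=
  List.rec (motive := fun _ => ℕ) 0 (fun e _ ih => Nat.add (Nat.mul ih 65536) (pc c (Nat.land A e.2))) L

/-- a graph with arrays of neighbours -/
structure GM (c : Cfg) (pt : ℕ → Ω) (N : Ω → Set Ω) (NB : ℕ → ℕ) : Prop where
  X : Ctx c pt
  surj : ∀ y, ∃ i, i < c.n ∧ pt i = y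
  pc : ∀ x, pc c x = (SO c pt x).ncard
  nb : ∀ i, i < c.n → N (pt i) = SO c pt (NB i)

theorem NM.gm (M : NM c pt pl nt lt) {par : ℕ → ℕ} {a D f : ℕ} {a₀ b₀ : Ω}
    (hD : Nb G a₀ b₀ (pt a) = SO c pt D) (h : allLt (reach c pl par a f) c.n = true) :
    GM c pt (Nb G a₀ b₀) (nbr c pl nt par a D f) :=
  ⟨M.X, M.surj, M.pc_eq, fun i hi => M.nbr_eq hD f i hi ((allLt_iff _ _).1 h i hi)⟩

def Iv (c : Cfg) (pt : ℕ → Ω) (K : Subgroup (Equiv.Perm Ω)) (x : ℕ) : Prop :=
  ∀ σ ∈ K, ∀ y ∈ SO c pt x, σ y ∈ SO c pt x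

/-- the automorphisms fixing the points of `F` are at most `B` -/
def AutLe (c : Cfg) (pt : ℕ → Ω) (N : Ω → Set Ω) (F : List ℕ) (B : ℕ) : Prop :=
  (∀ f ∈ F, f < c.n) → Nat.card (fixG N pt F) ≤ B

variable {N : Ω → Set Ω} {NB : ℕ → ℕ} {K : Subgroup (Equiv.Perm Ω)}

theorem GM.finite (M : GM c pt N NB) : Finite Ω :=
  Finite.of_surjective (fun i : Fin c.n => pt i) fun y => by
    obtain ⟨i, hi, e⟩ := M.surj y
    exact ⟨⟨i, hi⟩, e⟩

theorem GM.mem_En (M : GM c pt N NB) (y : Ω) : y ∈ SO c pt c.En := by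
  obtain ⟨i, hi, rfl⟩ := M.surj y
  exact ⟨i, hi, mb_En M.X hi, rfl⟩

theorem GM.mem_cpl (M : GM c pt N NB) {f : ℕ} (hf : f < c.n) (A : ℕ) (y : Ω) :
    y ∈ SO c pt (cpl c f A) ↔ y ∉ SO c pt A ∧ y ≠ pt f := by
  obtain ⟨i, hi, rfl⟩ := M.surj y
  rw [pt_mem M.X hi, pt_mem M.X hi, cpl, mb_xor, mb_lor, mb_En M.X hi, Ne,
    show pt i = pt f ↔ i = f from ⟨M.X.inj _ _ hi hf, congrArg pt⟩, ← mb_sg M.X]
  cases mb c A i <;> cases mb c (sg c f) i <;> simp

theorem Iv.land (X : Ctx c pt) {x y : ℕ} (h : Iv c pt K x) (h' : Iv c pt K y) : Iv c pt K (Nat.land x y) := by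
  intro σ hσ z
  rw [SO_land X]
  exact fun e => ⟨h σ hσ z e.1, h' σ hσ z e.2⟩

theorem GM.iv (M : GM c pt N NB) (hK : K ≤ autG N) {f : ℕ} (hf : f < c.n) (e : ∀ σ ∈ K, σ (pt f) = pt f) :
    Iv c pt K (NB f) ∧ Iv c pt K (cpl c f (NB f)) := by
  have h : ∀ σ ∈ K, ∀ y, σ y ∈ SO c pt (NB f) ↔ y ∈ SO c pt (NB f) := fun σ hσ y => by
    rw [← M.nb f hf, ← hK hσ (pt f) y, e σ hσ]
  refine ⟨fun σ hσ y => (h σ hσ y).2, fun σ hσ y => ?_⟩
  rw [M.mem_cpl hf, M.mem_cpl hf, h σ hσ]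
  exact fun e' => ⟨e'.1, fun e2 => e'.2 (σ.injective (e2.trans (e σ hσ).symm))⟩

theorem GM.iv_cell (M : GM c pt N NB) (hK : K ≤ autG N) (p : ℕ) : ∀ F : List ℕ, (∀ f ∈ F, f < c.n) →
    (∀ f ∈ F, ∀ σ ∈ K, σ (pt f) = pt f) → Iv c pt K (cell c (F.map fun q => (q, NB q)) p)
  | [], _, _ => fun _ _ _ _ => M.mem_En _
  | f :: F, h, e => by
    rw [List.forall_mem_cons] at h e
    have ih := M.iv_cell hK p F h.2 e.2
    have h1 := M.iv hK h.1 e.1
    show Iv c pt K (sel (mb c (NB f) p) (Nat.land _ (NB f)) (Nat.land _ (cpl c f (NB f))))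
    cases mb c (NB f) p
    exacts [ih.land M.X h1.2, ih.land M.X h1.1]

theorem GM.fix_of_le (M : GM c pt N NB) {C : ℕ} (h : Iv c pt K C) (e : Nat.ble (R3.pc c C) 1 = true) :
    ∀ σ ∈ K, ∀ y ∈ SO c pt C, σ y = y := fun σ hσ y hy => by
  have := M.finite
  rw [Nat.ble_eq, M.pc] at e
  exact (Set.ncard_le_one (Set.toFinite _)).1 e _ (h σ hσ y hy) _ hy

theorem GM.fix_of_sep (M : GM c pt N NB) (hK : K ≤ autG N) : ∀ F : List ℕ, (∀ f ∈ F, f < c.n) →
    (∀ f ∈ F, ∀ σ ∈ K, σ (pt f) = pt f) → ∀ C, Iv c pt K C → sep c (F.map fun q => (q, NB q)) C = true →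
      ∀ σ ∈ K, ∀ y ∈ SO c pt C, σ y = y
  | [], _, _, _, i, s => M.fix_of_le i s
  | f :: F, h, e, C, i, s => by
    rw [List.forall_mem_cons] at h e
    have s' : bor (Nat.ble (R3.pc c C) 1) (band (sep c (F.map fun q => (q, NB q)) (Nat.land C (NB f)))
      (sep c (F.map fun q => (q, NB q)) (Nat.land C (cpl c f (NB f))))) = true := s
    rw [bor_eq_true, band_eq_true] at s'
    refine s'.elim (M.fix_of_le i) fun s' σ hσ y hy => ?_
    have h1 := M.iv hK h.1 e.1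
    by_cases h2 : y ∈ SO c pt (NB f)
    · exact M.fix_of_sep hK F h.2 e.2 _ (i.land M.X h1.1) s'.1 σ hσ y (SO_land M.X _ _ ▸ ⟨hy, h2⟩)
    · by_cases h3 : y = pt f
      · exact h3 ▸ e.1 σ hσ
      · exact M.fix_of_sep hK F h.2 e.2 _ (i.land M.X h1.2) s'.2 σ hσ y
          (SO_land M.X _ _ ▸ ⟨hy, (M.mem_cpl h.1 _ _).2 ⟨h2, h3⟩⟩)

theorem GM.key_eq (M : GM c pt N NB) (hK : K ≤ autG N) {σ : Equiv.Perm Ω} (hσ : σ ∈ K) {i j : ℕ}
    (hi : i < c.n) (hj : j < c.n) (e : σ (pt i) = pt j) : ∀ L : List (ℕ × ℕ), (∀ x ∈ L, Iv c pt K x.2) →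
      key c L (NB j) = key c L (NB i)
  | [], _ => rfl
  | x :: L, h => by
    rw [List.forall_mem_cons] at h
    have := M.finite
    have le : ∀ τ ∈ K, ∀ y, (N y ∩ SO c pt x.2).ncard ≤ (N (τ y) ∩ SO c pt x.2).ncard := fun τ hτ y =>
      Set.ncard_le_ncard_of_injOn τ (fun z hz => ⟨(hK hτ y z).2 hz.1, h.1 τ hτ z hz.2⟩) τ.injective.injOn
    show key c L _ * 65536 + R3.pc c _ = key c L _ * 65536 + R3.pc c _
    rw [M.key_eq hK hσ hi hj e L h.2, M.pc, M.pc, SO_land M.X, SO_land M.X, ← M.nb i hi, ← M.nb j hj, ← e]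
    exact congrArg _ (le_antisymm (by simpa using le _ (K.inv_mem hσ) (σ (pt i))) (le σ hσ _))

theorem fixG_le {F : List ℕ} : fixG N pt F ≤ autG N := fun _ h => h.1

theorem GM.autLe_fin (M : GM c pt N NB) {F : List ℕ} (h : mapK NB F (fun L => sep c L c.En) = true) :
    AutLe c pt N F 1 := fun hF => by
  rw [mapK_eq] at h
  have : fixG N pt F = ⊥ := eq_bot_iff.2 fun σ hσ => Equiv.ext fun y =>
    M.fix_of_sep fixG_le F hF (fun f hf σ hσ => hσ.2 f hf) _ (fun _ _ _ _ => M.mem_En _) h σ hσ y (M.mem_En y)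
  rw [this, Subgroup.card_bot]

theorem GM.autLe_step (M : GM c pt N NB) {F : List ℕ} {p s B : ℕ} (a : AutLe c pt N (p :: F) B)
    (hp : p < c.n) (h : (∀ f ∈ F, f < c.n) → (orbit (fixG N pt F) (pt p)).ncard ≤ s) :
    AutLe c pt N F (s * B) := fun hF => by
  have := M.finite
  rw [card_eq_orbit_mul _ (pt p)]
  refine Nat.mul_le_mul (h hF) (le_trans (Subgroup.card_le_of_le fun σ hσ => ?_)
    (a (List.forall_mem_cons.2 ⟨hp, hF⟩)))
  exact ⟨hσ.1.1, List.forall_mem_cons.2 ⟨hσ.2, hσ.1.2⟩⟩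

noncomputable def adjAt (c : Cfg) (L : List (ℕ × ℕ)) (s p : ℕ) : Bool :=
  force (cell c L p) fun C => band (Nat.ble (Nat.succ p) c.n) (band (mb c C p) (Nat.ble (pc c C) s))

theorem GM.orbit_le (M : GM c pt N NB) {F : List ℕ} {p s : ℕ} (hF : ∀ f ∈ F, f < c.n)
    (h : adjAt c (F.map fun q => (q, NB q)) s p = true) : (orbit (fixG N pt F) (pt p)).ncard ≤ s := by
  have := M.finite
  simp only [adjAt, force_eq, band_eq_true, Nat.ble_eq, M.pc] at h
  refine le_trans (Set.ncard_le_ncard ?_) h.2.2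
  rintro _ ⟨σ, rfl⟩
  exact M.iv_cell fixG_le p F hF (fun f hf σ hσ => hσ.2 f hf) σ σ.2 _ ⟨p, h.1, h.2.1, rfl⟩

/-- a base point in a cell with at most `s` points -/
theorem GM.autLe_adj (M : GM c pt N NB) {F : List ℕ} {p B : ℕ} (s : ℕ)
    (h : mapK NB F (fun L => adjAt c L s p) = true) (a : AutLe c pt N (p :: F) B) :
    AutLe c pt N F (s * B) := by
  rw [mapK_eq] at h
  refine M.autLe_step a ?_ fun hF => M.orbit_le hF h
  simp only [adjAt, force_eq, band_eq_true, Nat.ble_eq] at h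
  exact h.1

/-- points which are alone in their cells -/
theorem GM.autLe_one (M : GM c pt N NB) {F : List ℕ} (P : List ℕ) {B : ℕ}
    (h : mapK NB F (fun L => allL (adjAt c L 1) P) = true) (a : AutLe c pt N (P ++ F) B) :
    AutLe c pt N F B := fun hF => by
  have := M.finite
  rw [mapK_eq, allL_iff] at h
  refine le_trans (Subgroup.card_le_of_le fun σ hσ => ?_) (a (List.forall_mem_append.2 ⟨fun p hp => ?_, hF⟩))
  · exact ⟨hσ.1, List.forall_mem_append.2 ⟨fun p hp => (Set.ncard_le_one (Set.toFinite _)).1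
      (M.orbit_le hF (h p hp)) _ ⟨⟨σ, hσ⟩, rfl⟩ _ (mem_orbit_self _), hσ.2⟩⟩
  · have := h p hp
    simp only [adjAt, force_eq, band_eq_true, Nat.ble_eq] at this
    exact this.1

/-- the points of the cell of `p` with the same numbers of neighbours in the cells of `Q` are in `R` -/
noncomputable def refOk (c : Cfg) (NB : ℕ → ℕ) (F : List ℕ) (p : ℕ) (Q R : List ℕ) (lo k : ℕ) : Bool :=
  mapK NB F fun L => mapK (cell c L) Q fun T => force (cell c L p) fun C => force (force (NB p) (key c T)) fun v =>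
    band (band (Nat.ble (Nat.succ p) c.n) (mb c C p))
      (allFrom (fun i => bimp (mb c C i) (bimp (Nat.beq (force (NB i) (key c T)) v) (anyL (Nat.beq i) R))) lo k)

def RefTo (c : Cfg) (NB : ℕ → ℕ) (F : List ℕ) (p : ℕ) (Q R : List ℕ) (k : ℕ) : Prop :=
  ∀ i, i < k → refOk c NB F p Q R i 1 = true

theorem RefTo.zero {F Q R : List ℕ} {p : ℕ} : RefTo c NB F p Q R 0 := fun _ h => absurd h (Nat.not_lt_zero _)

theorem RefTo.step {F Q R : List ℕ} {p lo : ℕ} (a : RefTo c NB F p Q R lo) (k : ℕ)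
    (h : refOk c NB F p Q R lo k = true) : RefTo c NB F p Q R (lo + k) := fun i hi => by
  rcases Nat.lt_or_ge i lo with h1 | h1
  · exact a i h1
  · simp only [refOk, mapK_eq, force_eq, band_eq_true, allFrom_iff] at h ⊢
    exact ⟨h.1, fun j h2 h3 => h.2 j (by omega) (by omega)⟩

theorem GM.autLe_ref (M : GM c pt N NB) {F Q R : List ℕ} {p B k : ℕ} (h : RefTo c NB F p Q R k)
    (hk : Nat.beq k c.n = true) (h0 : 0 < k) (a : AutLe c pt N (p :: F) B) : AutLe c pt N F (len R * B) := by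
  classical
  have := M.finite
  obtain rfl := Nat.eq_of_beq_eq_true hk
  simp only [RefTo, refOk, mapK_eq, force_eq, band_eq_true, allFrom_iff, Nat.ble_eq, bimp_eq_true, Nat.beq_eq,
    anyL_iff] at h
  have hp := (h 0 h0).1
  refine M.autLe_step a hp.1 fun hF => ?_
  have hs : orbit (fixG N pt F) (pt p) ⊆ (R.toFinset.image pt : Finset Ω) := by
    rintro _ ⟨σ, rfl⟩
    have iv := fun q => M.iv_cell fixG_le q F hF (fun f hf σ hσ => hσ.2 f hf)
    obtain ⟨j, hj, e1, e2⟩ := iv p σ σ.2 _ ⟨p, hp.1, hp.2, rfl⟩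
    obtain ⟨r, hr, rfl⟩ := (h j hj).2 j le_rfl (Nat.lt_succ_self _) e1
      (M.key_eq fixG_le σ.2 hp.1 hj e2.symm _ (by simpa using fun q _ => iv q))
    exact Finset.mem_coe.2 (Finset.mem_image.2 ⟨j, List.mem_toFinset.2 hr, e2⟩)
  have h1 := Set.ncard_le_ncard hs (Finset.finite_toSet _)
  rw [Set.ncard_coe_finset] at h1
  exact h1.trans (Finset.card_image_le.trans ((List.toFinset_card_le _).trans (len_eq R).ge))

theorem AutLe.card {B : ℕ} (a : AutLe c pt N [] B) : Nat.card (autG N) ≤ B := by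
  have : autG N = fixG N pt [] := le_antisymm (fun σ h => ⟨h, fun _ h => absurd h List.not_mem_nil⟩) fixG_le
  exact this ▸ a fun _ h => absurd h List.not_mem_nil

theorem eqns_comp : True := by
  have := @gtAll.eq_1
  have := @extOk.eq_1
  have := @mb.eq_1
  have := @sg.eq_1
  have := @SO.eq_1.{0}
  have := @pc.eq_1
  have := @uni.eq_1
  have := @selOk.eq_1
  have := @fixL.eq_1
  have := @cpl.eq_1
  have := @adjAt.eq_1
  have := @refOk.eq_1
  have := @RefTo.eq_1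
  exact True.intro

end H19.R3
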