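import Cfsg.Agent.Lib.Rk19.Crit

/-! Subgroups of given index, by a covering of a conjugacy class with the orbits of a Sylow subgroup. -/

set_option autoImplicit false

namespace H19.R3

open H54 MulAction
open scoped Pointwise

variable {G Ω : Type*} [Group G] [MulAction G Ω] {c : Cfg} {pt : ℕ → Ω} {pl nt NB : ℕ → ℕ} {lt : ℕ → G}

/-- the word `w` has a cycle of length `q` through `p` -/
noncomputable def cyc (c : Cfg) (pl : ℕ → ℕ) (q : ℕ) (w : List ℕ) (p : ℕ) : Bool :=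
  band (Nat.ble (Nat.succ p) c.n) (band (nb (Nat.beq (wl c pl w p) p))
    (Nat.beq (wl c pl (sb [w] (List.replicate q 0)) p) p))

theorem NM.dvd_of_cyc [Finite G] (M : NM c pt pl nt lt) {q p : ℕ} {w : List ℕ} (h : cyc c pl q w p = true)
    (qq : q.Prime) {K : Subgroup G} (hw : lw lt w ∈ K) : q ∣ Nat.card K := by
  simp only [cyc, band_eq_true, Nat.ble_eq, nb_eq_true, Nat.beq_eq] at h
  refine dvd_card_of_cycle hw qq (y := pt p) ?_ fun e => h.2.1 ?_
  · have := lw_smul M.rep (sb [w] (List.replicate q 0)) h.1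
    rwa [h.2.2, lw_sb, lw_replicate] at this
  · exact M.X.inj _ _ (repF_lw M.rep w p h.1).1 h.1 ((lw_smul M.rep w h.1).symm.trans e)

theorem lw_sb_mem {K : Subgroup G} {Y : List (List ℕ)} (h : ∀ w ∈ Y, lw lt w ∈ K) (z : List ℕ) :
    lw lt (sb Y z) ∈ K := by
  rw [lw_sb]
  exact lw_mem fun i _ => (nthW_mem Y i).elim (fun e => e ▸ one_mem K) (h _)

theorem NM.SO_netL (M : NM c pt pl nt lt) (w : List ℕ) (x : ℕ) (y : Ω) :
    y ∈ SO c pt (netL c nt w x) ↔ lw lt w • y ∈ SO c pt x := by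
  classical
  rw [← coe_setObj M.X, ← coe_setObj M.X, M.setObj_W, Finset.mem_coe, Finset.mem_coe, Finset.mem_inv_smul_finset_iff]

noncomputable def u0At (c : Cfg) (pl nt : ℕ → ℕ) (r B q d m t x : ℕ) (HL SL ws Bs : List ℕ)
    (e : List ℕ × List ℕ × List ℕ × ℕ × List ℕ) : Bool :=
  band (subL e.1 HL) (band (Nat.beq (wlT c pl r (e.1 ++ e.2.1) B) (wlT c pl r [] B))
    (bor (cyc c pl q (sb ((e.2.1 ++ t :: e.1) :: SL.map fun l => [l]) e.2.2.1) e.2.2.2.1)
      (force (netL c nt e.1 x) fun y => band (mb c y d)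
        (force (cut c nt ws y) fun F => selOk c nt ws e.2.2.2.2 F (p0 c d m Bs)))))

theorem NM.u0_cover [Finite G] [DecidableEq Ω] (M : NM c pt pl nt lt) {r B : ℕ} (bs : IsBase G c pt r B)
    {a b k m q p p' t x N L : ℕ} {SL HL NL ws Bs Sg Ts : List ℕ} (pp : p.Prime) (hS : IsPGroup p (gp lt SL))
    (hpk : ¬ p ∣ k) (pp' : p'.Prime) (ht : IsPGroup p' (gp lt [t])) (hpk' : ¬ p' ∣ k)
    (hm : m * k = Nat.card (stabilizer G (pt a))) (qq : q.Prime) (hq : ¬ q ∣ m)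
    {T : GT (List ℕ × List ℕ × List ℕ × ℕ × List ℕ)}
    (hf : band (band (fixL c pl [a, b] SL) (fixL c pl [a] (t :: HL))) (band (subL ws SL)
      (band (allL (fun j => subL (T.get j).1 SL) Sg) (nrmOk c pl nt r B a x t NL))) = true)
    (hT : allL (fun j => u0At c pl nt r B q b m t x HL SL ws Bs (T.get j)) Ts = true) {h : ℕ → ℕ}
    (w : Walk (setObj c pt 0) (actW c nt fun j => (T.get j).1) (fun a => h (plane c 0 a)) Sg Ts x N)
    (hL : L ≤ Nat.card (gp lt NL)) (hN : Nat.card (stabilizer G (pt a)) ≤ L * N)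
    (hB : ∀ y ∈ Bs, Big G c pt (stabilizer G (pt a)) k y) : U0 G (pt a) (pt b) k := by
  simp only [band_eq_true, allL_iff] at hf
  simp only [allL_iff, u0At, band_eq_true, bor_eq_true, force_eq] at hT
  obtain ⟨⟨f1, f2⟩, f3, f4, f5⟩ := hf
  obtain ⟨n1, n2, n3⟩ := M.nrm bs f5
  have hSH : gp lt SL ≤ stabilizer G (pt a) := gp_le fun l hl => M.fix f1 List.mem_cons_self hl
  have hSb : gp lt SL ≤ stabilizer G (pt b) := gp_le fun l hl => M.fix f1 (by simp) hl
  have hb : b < c.n := lt_of_fixL f1 (by simp)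
  have hu : ∀ j ∈ Ts, lw lt (T.get j).1 ∈ stabilizer G (pt a) := fun j hj => lw_mem fun l hl =>
    M.fix f2 List.mem_cons_self (List.mem_cons_of_mem _ (mem_of_subL (hT j hj).1 l hl))
  have cov := (M.dcover hSH (fun j hj => lw_mem fun l hl => mem_gp (mem_of_subL (f4 j hj) l hl)) hu w n1 n2
    hL hN).2
  refine U0_of pp hSH hS hpk fun K hK hk hSK => ⟨_, self_mem_Nb _ _, ?_⟩
  have hc : Nat.card K = m := Nat.eq_of_mul_eq_mul_right (Nat.pos_of_ne_zero fun e : k = 0 => hpk (e ▸ dvd_zero _))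
    (hk.trans hm.symm)
  have key : ∀ g ∈ stabilizer G (pt a), g * lt t * g⁻¹ ∈ K → g⁻¹ • pt b ∈ SO c pt x ∧ ∃ j ∈ Ts,
      (lw lt (T.get j).1)⁻¹ * lt t * lw lt (T.get j).1 ∈ K ∧ selOk c nt ws (T.get j).2.2.2.2
        (cut c nt ws (netL c nt (T.get j).1 x)) (p0 c b m Bs) = true := fun g hg e => by
    obtain ⟨j, hj, s, hs, n, hn, rfl⟩ := cov g hg
    have h1 := conj_mem_of_norm (n3 hn) (hSK hs) e
    obtain ⟨-, h2, h3 | h3⟩ := hT j hj
    · refine absurd (hc ▸ M.dvd_of_cyc h3 qq (lw_sb_mem (List.forall_mem_cons.2 ⟨?_, fun v hv => ?_⟩) _)) hq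
      · have := lw_eq M.X M.rep bs h2
        rw [lw_append, lw_nil] at this
        rwa [lw_append, lw_cons, eq_inv_of_mul_eq_one_right this, ← mul_assoc]
      · obtain ⟨l, hl, rfl⟩ := List.mem_map.1 hv
        rw [lw_cons, lw_nil, mul_one]
        exact hSK (mem_gp hl)
    · refine ⟨?_, j, hj, h1, h3.2⟩
      have h4 := (M.SO_netL _ _ _).1 ((pt_mem M.X hb).2 h3.1)
      rw [← coe_setObj M.X, Finset.mem_coe] at h4 ⊢
      rw [mul_inv_rev, mul_inv_rev, inv_inv, mul_smul, mul_smul, show s⁻¹ • pt b = pt b from hSb (inv_mem hs),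
        Finset.inv_smul_mem_iff, show n • setObj c pt 0 x = _ from n2 hn]
      exact h4
  obtain ⟨g, hg, e⟩ := exists_conj_le pp' hK (gp_le fun l hl => M.fix f2 List.mem_cons_self
    (List.mem_singleton.1 hl ▸ List.mem_cons_self)) ht hk hpk'
  obtain ⟨-, j, hj, h1, h2⟩ := key g⁻¹ (inv_mem hg) (by simpa using e _ (mem_gp List.mem_cons_self))
  have hw : ∀ l ∈ ws, lt l ∈ K := fun l hl => hSK (mem_gp (mem_of_subL f3 l hl))
  refine M.fix_of_sel hK hk hc hw hb (M.sub_cut (fun g hg z hz => mem_orbit_of_mem_orbit (⟨g, hg⟩ : K) hz) ws _ hw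
    ?_) hB h2
  rintro _ ⟨u, rfl⟩
  have := (key ((u : G)⁻¹ * (lw lt (T.get j).1)⁻¹) (mul_mem (inv_mem (hK u.2)) (inv_mem (hu j hj)))
    (by simpa [mul_assoc] using K.mul_mem (K.mul_mem (K.inv_mem u.2) h1) u.2)).1
  rw [M.SO_netL]
  simpa [mul_smul, Subgroup.smul_def] using this

theorem eqns_cov : True := by
  have := @cyc.eq_1
  have := @u0At.eq_1
  exact True.intro

end H19.R3
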