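import Cfsg.Agent.Lib.Rk19.Comp

/-! Checkable criteria for the uniqueness facts of the rigidity theorem. -/

set_option autoImplicit false

namespace H19.R3

open H54 MulAction
open scoped Pointwise

variable {G Ω : Type*} [Group G] [MulAction G Ω] {c : Cfg} {pt : ℕ → Ω} {pl nt NB : ℕ → ℕ} {lt : ℕ → G}

/-! ### group theory -/

theorem exists_conj_le [Finite G] {H M P : Subgroup G} {p k : ℕ} (pp : p.Prime) (hM : M ≤ H) (hP : P ≤ H)
    (hp : IsPGroup p P) (hk : Nat.card M * k = Nat.card H) (hpk : ¬ p ∣ k) :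
    ∃ h ∈ H, ∀ g ∈ P, h⁻¹ * g * h ∈ M := by
  have := Fact.mk pp
  have e : Nat.card (H ⧸ M.subgroupOf H) = k := by
    have h1 := (M.subgroupOf H).card_mul_index
    rw [Nat.card_congr (Subgroup.subgroupOfEquivOfLe hM).toEquiv, ← hk] at h1
    exact Nat.eq_of_mul_eq_mul_left Nat.card_pos h1
  obtain ⟨x, hx⟩ := (hp.of_equiv (Subgroup.subgroupOfEquivOfLe hP).symm).nonempty_fixed_point_of_prime_not_dvd_card
    (H ⧸ M.subgroupOf H) (e ▸ hpk)
  obtain ⟨h, rfl⟩ := QuotientGroup.mk_surjective x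
  refine ⟨h, h.2, fun g hg => ?_⟩
  have h2 := QuotientGroup.eq.1 (hx ⟨⟨g, hP hg⟩, hg⟩ : ((⟨g, hP hg⟩ * h : H) : H ⧸ M.subgroupOf H) = h)
  simpa [Subgroup.mem_subgroupOf, mul_assoc] using inv_mem h2

theorem conj_data {H M : Subgroup G} {h : G} (hh : h ∈ H) (hM : M ≤ H) :
    M.map (MulAut.conj h).toMonoidHom ≤ H ∧ Nat.card (M.map (MulAut.conj h).toMonoidHom) = Nat.card M ∧
      ∀ g, h⁻¹ * g * h ∈ M ↔ g ∈ M.map (MulAut.conj h).toMonoidHom :=
  ⟨by rintro _ ⟨m, hm, rfl⟩; exact mul_mem (mul_mem hh (hM hm)) (inv_mem hh),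
    Subgroup.card_map_of_injective (MulAut.conj h).injective,
    fun g => ⟨fun e => ⟨_, e, by simp [mul_assoc]⟩, by rintro ⟨m, hm, rfl⟩; simpa [mul_assoc] using hm⟩⟩

theorem U0_of [Finite G] {a b : Ω} {k p : ℕ} (pp : p.Prime) {P : Subgroup G} (hP : P ≤ stabilizer G a)
    (hp : IsPGroup p P) (hpk : ¬ p ∣ k) (h : ∀ M : Subgroup G, M ≤ stabilizer G a →
      Nat.card M * k = Nat.card (stabilizer G a) → P ≤ M → ∃ b₁ ∈ Nb G a b a, M ≤ stabilizer G b₁) :
    U0 G a b k := fun M hM hk => by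
  obtain ⟨u, hu, e⟩ := exists_conj_le pp hM hP hp hk hpk
  obtain ⟨h1, h2, h3⟩ := conj_data hu hM
  obtain ⟨b₁, hb, h4⟩ := h _ h1 (h2 ▸ hk) fun g hg => (h3 g).1 (e g hg)
  refine ⟨u⁻¹ • b₁, (smul_mem_Nb_fix (inv_mem hu)).2 hb, fun m hm => ?_⟩
  have := h4 ((h3 (u * m * u⁻¹)).1 (by simpa [mul_assoc] using hm))
  rw [mem_stabilizer_iff, mul_smul, mul_smul] at this
  exact eq_inv_smul_iff.2 this

variable (G) in
/-- the conclusion of `U2` -/
def C2 (a b c : Ω) (M : Subgroup G) (Y : Set Ω) : Prop :=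
  ∃ σ : MulAut (stabilizer G a), (∀ h, (σ h : G) • b = b ↔ (h : G) • b = b) ∧
    ∃ c₁ ∈ Nb G a c a, (∀ h, (σ h : G) • b ∈ Nb G a b c₁ ↔ (h : G) • b ∈ Y) ∧
      ∀ h : stabilizer G a, (h : G) ∈ M → (σ h : G) • c₁ = c₁

theorem C2.of_eq {a b c c₁ : Ω} {M : Subgroup G} {Y : Set Ω} (h : c₁ ∈ Nb G a c a)
    (e : Y = Nb G a b c₁ ∩ Nb G a b a) (hM : M ≤ stabilizer G c₁) : C2 G a b c M Y :=
  ⟨1, fun _ => Iff.rfl, c₁, h, fun u => e ▸ (and_iff_left ⟨u, u.2, rfl⟩).symm, fun _ hu => hM hu⟩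

theorem C2.conj {a b c : Ω} {M : Subgroup G} {Y : Set Ω} {u : G} (hu : u ∈ stabilizer G a)
    (h : C2 G a b c (M.map (MulAut.conj u).toMonoidHom) ((u • ·) '' Y)) : C2 G a b c M Y := by
  obtain ⟨σ, h1, c₁, h2, h3, h4⟩ := h
  refine ⟨σ, h1, (σ ⟨u, hu⟩ : G)⁻¹ • c₁, (smul_mem_Nb_fix (inv_mem (σ _).2)).2 h2, fun v => ?_, fun v hv => ?_⟩
  · rw [← smul_mem_Nb_iff (σ ⟨u, hu⟩ : G), smul_inv_smul, ← mul_smul, ← Subgroup.coe_mul, ← map_mul, h3,
      Subgroup.coe_mul, mul_smul]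
    exact (MulAction.injective u).mem_set_image
  · have := h4 (⟨u, hu⟩ * v * ⟨u, hu⟩⁻¹) ⟨v, hv, rfl⟩
    rw [map_mul, map_mul, map_inv, Subgroup.coe_mul, Subgroup.coe_mul, Subgroup.coe_inv, mul_smul, mul_smul] at this
    exact eq_inv_smul_iff.2 this

theorem U2_of [Finite G] {a b c : Ω} {l p μ : ℕ} (pp : p.Prime) {P : Subgroup G} (hP : P ≤ stabilizer G a)
    (hp : IsPGroup p P) (hpk : ¬ p ∣ l) (hμ : (Nb G a b c ∩ Nb G a b a).ncard = μ)
    (h : ∀ M : Subgroup G, M ≤ stabilizer G a → Nat.card M * l = Nat.card (stabilizer G a) → P ≤ M →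
      ∀ Y ⊆ Nb G a b a, (∀ g ∈ M, ∀ z ∈ Y, g • z ∈ Y) → Y.ncard = μ → C2 G a b c M Y) :
    U2 G a b c l := fun M hM hk Y hY hi hc => by
  obtain ⟨u, hu, e⟩ := exists_conj_le pp hM hP hp hk hpk
  obtain ⟨h1, h2, h3⟩ := conj_data hu hM
  refine C2.conj hu (h _ h1 (h2 ▸ hk) (fun g hg => (h3 g).1 (e g hg)) _ ?_ ?_ (by rw [ncard_smul, hc, hμ]))
  · rintro _ ⟨y, hy, rfl⟩
    exact (smul_mem_Nb_fix hu).2 (hY hy)
  · rintro _ ⟨m, hm, rfl⟩ _ ⟨y, hy, rfl⟩
    exact ⟨m • y, hi m hm y hy, by simp [mul_smul]⟩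

theorem orbit_le_index [Finite G] {Y : Type*} [MulAction G Y] {H M : Subgroup G} {k : ℕ} (hM : M ≤ H)
    (hk : Nat.card M * k = Nat.card H) {y : Y} (hy : M ≤ stabilizer G y) : (orbit H y).ncard ≤ k := by
  have h1 := card_eq_orbit_mul H y
  have h2 := Subgroup.card_le_of_le (le_inf hM hy)
  rw [← hk, mul_comm] at h1
  exact Nat.le_of_mul_le_mul_right ((Nat.mul_le_mul_left _ h2).trans h1.ge) Nat.card_pos

theorem dvd_card_of_cycle [Finite G] {M : Subgroup G} {g : G} (hg : g ∈ M) {p : ℕ} (pp : p.Prime) {y : Ω}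
    (h1 : g ^ p • y = y) (h2 : g • y ≠ y) : p ∣ Nat.card M := by
  have h3 := (Nat.dvd_prime pp).1 (pow_smul_eq_iff_period_dvd.1 h1)
  rw [period_eq_one_iff] at h3
  exact ((h3.resolve_left h2) ▸ period_dvd_orderOf g y).trans (Subgroup.orderOf_dvd_natCard M hg)

/-- the subgroup generated by some letters -/
def gp (lt : ℕ → G) (L : List ℕ) : Subgroup G := Subgroup.closure {g | ∃ l ∈ L, lt l = g}

theorem mem_gp {L : List ℕ} {l : ℕ} (h : l ∈ L) : lt l ∈ gp lt L := Subgroup.subset_closure ⟨l, h, rfl⟩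

theorem gp_le {L : List ℕ} {K : Subgroup G} (h : ∀ l ∈ L, lt l ∈ K) : gp lt L ≤ K :=
  (Subgroup.closure_le _).2 (by rintro _ ⟨l, hl, rfl⟩; exact h l hl)

noncomputable def subL (w L : List ℕ) : Bool := allL (fun l => anyL (Nat.beq l) L) w

theorem mem_of_subL {w L : List ℕ} (h : subL w L = true) : ∀ l ∈ w, l ∈ L := fun l hl => by
  obtain ⟨a, ha, e⟩ := (anyL_iff _ _).1 ((allL_iff _ _).1 h l hl)
  exact Nat.eq_of_beq_eq_true e ▸ ha

/-- each letter has order dividing `q` and normalises the group generated by the later ones -/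
noncomputable def pgOk (c : Cfg) (pl : ℕ → ℕ) (r B q : ℕ) (L : List ℕ) : List (List (List ℕ)) → Bool :=
  List.rec (motive := fun _ => List (List (List ℕ)) → Bool) (fun _ => true)
    (fun l L' ih W => band (Nat.beq (wlT c pl r (List.replicate q l) B) (wlT c pl r [] B))
      (band (allLt (fun i => band (subL (nthW (W.headD []) i) L')
        (Nat.beq (wlT c pl r [l, nth L' i] B) (wlT c pl r (nthW (W.headD []) i ++ [l]) B))) (len L'))
        (ih W.tail))) L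

theorem NM.pgroup [Finite G] (M : NM c pt pl nt lt) {r B : ℕ} (b : IsBase G c pt r B) {p e : ℕ} :
    ∀ (L : List ℕ) W, pgOk c pl r B (p ^ e) L W = true → IsPGroup p (gp lt L)
  | [], _, _ => by
    rw [show gp lt [] = ⊥ from le_bot_iff.1 (gp_le fun _ h => absurd h List.not_mem_nil)]
    exact IsPGroup.of_bot
  | l :: L, W, h => by
    have h' : band (Nat.beq (wlT c pl r (List.replicate (p ^ e) l) B) (wlT c pl r [] B))
      (band (allLt (fun i => band (subL (nthW (W.headD []) i) L)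
        (Nat.beq (wlT c pl r [l, nth L i] B) (wlT c pl r (nthW (W.headD []) i ++ [l]) B))) (len L))
        (pgOk c pl r B (p ^ e) L W.tail)) = true := h
    rw [band_eq_true, band_eq_true, allLt_iff] at h'
    have h1 := lw_eq M.X M.rep b h'.1
    rw [lw_replicate, lw_nil] at h1
    have h2 : IsPGroup p (Subgroup.zpowers (lt l)) := by
      rintro ⟨_, k, rfl⟩
      exact ⟨e, Subtype.ext (by rw [SubgroupClass.coe_pow, ← zpow_natCast, ← zpow_mul, mul_comm, zpow_mul,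
        zpow_natCast, h1, one_zpow]; rfl)⟩
    have h3 : lt l ∈ Subgroup.normalizer (gp lt L : Set G) := by
      refine Subgroup.mem_normalizer_fintype fun n hn => ?_
      refine (gp_le (K := (gp lt L).comap (MulAut.conj (lt l)).toMonoidHom) fun a ha => ?_) hn
      obtain ⟨i, hi, rfl⟩ := List.getElem_of_mem ha
      have h4 := h'.2.1 i (len_eq L ▸ hi)
      rw [band_eq_true] at h4
      have h5 := lw_eq M.X M.rep b h4.2
      have h6 : nth L i = L[i] := by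
        clear * -
        induction L generalizing i with
        | nil => simp at hi
        | cons a L ih => cases i; exacts [rfl, ih _ _]
      rw [lw_append, lw_cons, lw_cons, lw_cons, lw_nil, mul_one, mul_one, h6] at h5
      show lt l * lt L[i] * (lt l)⁻¹ ∈ gp lt L
      rw [h5, mul_inv_cancel_right]
      exact lw_mem fun a ha => mem_gp (mem_of_subL h4.1 a ha)
    refine (h2.to_sup_of_normal_right' (M.pgroup b L _ h'.2.2) (Subgroup.zpowers_le.2 h3)).to_le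
      (gp_le (List.forall_mem_cons.2 ⟨Subgroup.mem_sup_left (Subgroup.mem_zpowers _),
        fun a ha => Subgroup.mem_sup_right (mem_gp ha)⟩))

/-! ### orbits of sets -/

theorem stab_of_inv [DecidableEq Ω] (X : Ctx c pt) {M : Subgroup G} {y : ℕ}
    (h : ∀ g ∈ M, ∀ z ∈ SO c pt y, g • z ∈ SO c pt y) : M ≤ stabilizer G (setObj c pt 0 y) := fun g hg => by
  rw [← coe_setObj X] at h
  refine Finset.eq_of_subset_of_card_le (fun z hz => ?_) (Finset.card_smul_finset _ _).ge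
  obtain ⟨z, hz', rfl⟩ := Finset.mem_smul_finset.1 hz
  exact h g hg z hz'

noncomputable def actW (c : Cfg) (nt : ℕ → ℕ) (W : ℕ → List ℕ) (j x : ℕ) : ℕ := netL c nt (W j) x

theorem objSpec_W [DecidableEq Ω] (X : Ctx c pt) (W : ℕ → List ℕ) : ObjSpec G c pt (setObj c pt 0)
    (fun _ => True) (actW c nt W) (fun j => netL c nt (W j) c.one) (plane c 0) true where
  step := fun u T a r _ => ⟨trivial, by
    show _ = u⁻¹ • _
    rw [eq_inv_smul_iff]
    exact smul_setObj_of X r fun i hi => by rw [actW, get_netL X _ _ _ (hi.trans_le X.ok.n_le)]⟩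
  key := fun a a' _ _ e => (plane_eq_iff X X.ok.b_pos X.ok.b_pos).2 e

theorem NM.setObj_W [DecidableEq Ω] (M : NM c pt pl nt lt) (w : List ℕ) (x : ℕ) :
    setObj c pt 0 (netL c nt w x) = (lw lt w)⁻¹ • setObj c pt 0 x :=
  ((objSpec_W M.X fun _ => w).step _ 0 x (M.repL w) trivial).2

/-- the same set, with labels in the unused bits (the kernel hashes numbers by their low bits) -/
def nz (c : Cfg) (y : ℕ) : ℕ := Nat.xor y (Nat.shiftLeft (Nat.land c.one c.L) 1)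

variable (G) in
/-- no subgroup of index `k` of `H` leaves the set invariant -/
def Big (c : Cfg) (pt : ℕ → Ω) (H : Subgroup G) (k y : ℕ) : Prop := ∀ M : Subgroup G, M ≤ H →
  Nat.card M * k = Nat.card H → ¬ ∀ g ∈ M, ∀ z ∈ SO c pt y, g • z ∈ SO c pt y

theorem NM.big [Finite G] [DecidableEq Ω] (M : NM c pt pl nt lt) {H : Subgroup G} {W : ℕ → List ℕ}
    {S Ts : List ℕ} (hS : ∀ j ∈ S, lw lt (W j) ∈ H) (hT : ∀ j ∈ Ts, lw lt (W j) ∈ H) {h : ℕ → ℕ} {k x y : ℕ}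
    (w : Walk (setObj c pt 0) (actW c nt W) (fun a => h (plane c 0 a)) S Ts x (k + 1))
    (e : Nat.beq (plane c 0 x) (plane c 0 y) = true) : Big G c pt H k y :=
  fun K hK hk hi => by
    have := M.finite
    rw [← (plane_eq M.X).1 (Nat.eq_of_beq_eq_true e)] at hi
    have h1 := ((objSpec_W M.X W).cover le_rfl (fun j hj => ⟨_, hS j hj, M.repL _⟩)
      (fun j hj => ⟨_, hT j hj, M.repL _⟩) trivial w).1
    have := (le_ncard_of_le_encard (Set.toFinite _) h1).trans (orbit_le_index hK hk (stab_of_inv M.X hi))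
    omega

/-- double cosets: `J` is the stabiliser of a set, the walk with generators in `S` finds its whole orbit -/
theorem NM.dcover [Finite G] [DecidableEq Ω] (M : NM c pt pl nt lt) {H S J : Subgroup G} {W : ℕ → List ℕ}
    {Sg Ts : List ℕ} (hSH : S ≤ H) (hS : ∀ j ∈ Sg, lw lt (W j) ∈ S) (hT : ∀ j ∈ Ts, lw lt (W j) ∈ H)
    {h : ℕ → ℕ} {x N L : ℕ} (w : Walk (setObj c pt 0) (actW c nt W) (fun a => h (plane c 0 a)) Sg Ts x N)
    (hJ : J ≤ H) (hx : J ≤ stabilizer G (setObj c pt 0 x)) (hL : L ≤ Nat.card J) (hN : Nat.card H ≤ L * N) :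
    H ⊓ stabilizer G (setObj c pt 0 x) = J ∧
      ∀ g ∈ H, ∃ j ∈ Ts, ∃ s ∈ S, ∃ n ∈ J, g = s * (lw lt (W j))⁻¹ * n := by
  have := M.finite
  obtain ⟨h1, h2⟩ := (objSpec_W M.X W).cover hSH (fun j hj => ⟨_, hS j hj, M.repL _⟩)
    (fun j hj => ⟨_, hT j hj, M.repL _⟩) trivial w
  have h3 := le_ncard_of_le_encard (Set.toFinite _) h1
  have h4 := card_eq_orbit_mul H (setObj c pt 0 x)
  have h5 := Subgroup.card_le_of_le (le_inf hJ hx)
  have h6 : 0 < Nat.card J := Nat.card_pos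
  have h7 : 0 < (orbit H (setObj c pt 0 x)).ncard := (Set.ncard_pos (Set.toFinite _)).2 (nonempty_orbit _)
  have e : H ⊓ stabilizer G (setObj c pt 0 x) = J :=
    (Subgroup.eq_of_le_of_card_ge (le_inf hJ hx) (by nlinarith)).symm
  refine ⟨e, fun g hg => ?_⟩
  obtain ⟨j, hj, u, -, r, s, hs, e2⟩ := h2 (Set.toFinite _) (by rw [e] at h4; nlinarith) g hg
  have e3 := ((objSpec_W M.X W).step u j x r trivial).2.symm.trans (M.setObj_W (W j) x)
  refine ⟨j, hj, s, hs, (s * (lw lt (W j))⁻¹)⁻¹ * g, e ▸ ⟨H.mul_mem (H.inv_mem (H.mul_mem (hSH hs) (H.inv_mem (hT j hj)))) hg,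
    ?_⟩, (mul_inv_cancel_left _ _).symm⟩
  show _ • _ = _
  rw [mul_smul, e2, e3, ← mul_smul s, inv_smul_smul]

theorem conj_mem_of_norm {M : Subgroup G} {t s u n : G} (hn : n ∈ Subgroup.normalizer (Subgroup.zpowers t : Set G))
    (hs : s ∈ M) (h : s * u⁻¹ * n * t * (s * u⁻¹ * n)⁻¹ ∈ M) : u⁻¹ * t * u ∈ M := by
  obtain ⟨k, hk⟩ := (Subgroup.mem_normalizer_iff''.1 hn t).1 (Subgroup.mem_zpowers t)
  have h1 := M.zpow_mem (M.mul_mem (M.mul_mem (M.inv_mem hs) h) hs) k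
  have e : s⁻¹ * (s * u⁻¹ * n * t * (s * u⁻¹ * n)⁻¹) * s = u⁻¹ * n * t * (u⁻¹ * n)⁻¹ := by group
  rw [e, conj_zpow, show t ^ k = _ from hk] at h1
  simpa [mul_assoc] using h1

/-- the letters fix the point `a`, the set `x`, and normalise the group generated by the letter `t` -/
noncomputable def nrmOk (c : Cfg) (pl nt : ℕ → ℕ) (r B a x t : ℕ) (L : List ℕ) : Bool :=
  band (fixL c pl [a] L) (allL (fun l => band (Nat.beq (plane c 0 (netL c nt [l] x)) (plane c 0 x))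
    (bor (Nat.beq (wlT c pl r [l, t] B) (wlT c pl r [t, l] B))
      (Nat.beq (wlT c pl r [l, t] B) (wlT c pl r [t, t, l] B)))) L)

theorem NM.nrm [Finite G] [DecidableEq Ω] (M : NM c pt pl nt lt) {r B a x t : ℕ} (b : IsBase G c pt r B)
    {L : List ℕ} (h : nrmOk c pl nt r B a x t L = true) : gp lt L ≤ stabilizer G (pt a) ∧
      gp lt L ≤ stabilizer G (setObj c pt 0 x) ∧
      gp lt L ≤ Subgroup.normalizer (Subgroup.zpowers (lt t) : Set G) := by
  simp only [nrmOk, band_eq_true, allL_iff, bor_eq_true] at h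
  refine ⟨gp_le fun l hl => M.fix h.1 List.mem_cons_self hl, gp_le fun l hl => ?_, gp_le fun l hl => ?_⟩
  · have := (plane_eq_iff M.X M.X.ok.b_pos M.X.ok.b_pos).1 (Nat.eq_of_beq_eq_true (h.2 l hl).1)
    rw [M.setObj_W, lw_cons, lw_nil, mul_one, inv_smul_eq_iff] at this
    exact this.symm
  · refine Subgroup.mem_normalizer_fintype fun n hn => ?_
    refine (Subgroup.zpowers_le (H := (Subgroup.zpowers (lt t)).comap (MulAut.conj (lt l)).toMonoidHom)).2 ?_ hn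
    show lt l * lt t * (lt l)⁻¹ ∈ Subgroup.zpowers (lt t)
    rcases (h.2 l hl).2 with e | e <;> have := lw_eq M.X M.rep b e <;>
      simp only [lw_cons, lw_nil, mul_one, ← mul_assoc] at this <;> rw [this, mul_inv_cancel_right]
    exacts [Subgroup.mem_zpowers _, mul_mem (Subgroup.mem_zpowers _) (Subgroup.mem_zpowers _)]

theorem NM.le_card_gp [Finite G] (M : NM c pt pl nt lt) {L : List ℕ} {ch : BC}
    (h : blow c.n (wp c pl) (pall fun l => anyL (Nat.beq l) L) ch [] = true) : ch.size ≤ Nat.card (gp lt L) :=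
  (bLow_of_check M.X (fun a ha => ⟨_, pw_mem (fun l hl => by
    obtain ⟨a, ha, e⟩ := (anyL_iff _ _).1 hl
    exact mem_gp (Nat.eq_of_beq_eq_true e ▸ ha)) ha, repF_wp M.rep a⟩) h).size_le

/-! ### the criteria -/

noncomputable def nb (a : Bool) : Bool := H54.sel a false true

@[simp] theorem nb_eq_true (a : Bool) : nb a = true ↔ ¬ a = true := by cases a <;> simp [nb]

theorem lt_of_fixL {P w : List ℕ} (h : fixL c pl P w = true) {p : ℕ} (hp : p ∈ P) : p < c.n := by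
  simp only [fixL, allL_iff, band_eq_true, Nat.ble_eq] at h
  exact (h p hp).1

/-- a set that can be the orbit of `d` under a subgroup of order `m` is `{d}` -/
noncomputable def p0 (c : Cfg) (d m : ℕ) (Bs : List ℕ) (y : ℕ) : Bool :=
  bor (nb (mb c y d)) (force (pc c y) fun t => bor (Nat.ble t 1)
    (bor (nb (Nat.beq (Nat.mod m t) 0)) (anyL (Nat.beq y) Bs)))

theorem NM.fix_of_sel [Finite G] (M : NM c pt pl nt lt) {H K : Subgroup G} {k m d D : ℕ} {w R Bs : List ℕ}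
    (hK : K ≤ H) (hk : Nat.card K * k = Nat.card H) (hm : Nat.card K = m) (hw : ∀ l ∈ w, lt l ∈ K)
    (hd : d < c.n) (hD : orbit K (pt d) ⊆ SO c pt D) (hB : ∀ y ∈ Bs, Big G c pt H k y)
    (h : selOk c nt w R D (p0 c d m Bs) = true) : K ≤ stabilizer G (pt d) := by
  have := M.finite
  have hi : ∀ g ∈ K, ∀ z ∈ orbit K (pt d), g • z ∈ orbit K (pt d) := fun g hg z hz =>
    mem_orbit_of_mem_orbit (⟨g, hg⟩ : K) hz
  obtain ⟨y, e, h⟩ := M.sel h hw hi hD
  simp only [p0, bor_eq_true, nb_eq_true, force_eq, Nat.ble_eq, Nat.beq_eq, anyL_iff, M.pc_eq, ← e] at h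
  rcases h with h | h | h | ⟨z, hz, rfl⟩
  · exact absurd ((pt_mem M.X hd).1 (e ▸ mem_orbit_self _)) h
  · exact fun g hg => (Set.ncard_le_one (Set.toFinite _)).1 h _ ⟨⟨g, hg⟩, rfl⟩ _ (mem_orbit_self _)
  · exact absurd (Nat.mod_eq_zero_of_dvd ⟨_, hm ▸ card_eq_orbit_mul K (pt d)⟩) h
  · exact absurd (e ▸ hi) (hB y hz K hK hk)

noncomputable def u1Ok (c : Cfg) (pl nt NB : ℕ → ℕ) (a b k l : ℕ) (w R : List ℕ) : Bool :=
  band (fixL c pl [a, b] w) (force (NB a) fun D => selOk c nt w R D fun y => bor (mb c y b)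
    (force (Nat.sub k (Nat.succ (pc c y))) fun ν => bor (Nat.beq ν 0) (bor (nb (Nat.beq (Nat.mod (Nat.mul k ν) l) 0))
      (Nat.beq (plane c 0 y) (plane c 0 (Nat.land (NB b) D))))))

theorem NM.u1 (M : NM c pt pl nt lt) {a b k l : ℕ} (g : GM c pt (Nb G (pt a) (pt b)) NB) {w R : List ℕ}
    (h : u1Ok c pl nt NB a b k l w R = true) : U1 G (pt a) (pt b) k l := fun T hT hb hi ν hν hl => by
  simp only [u1Ok, band_eq_true, force_eq] at h
  have ha := lt_of_fixL h.1 List.mem_cons_self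
  have hb' : b < c.n := lt_of_fixL h.1 (by simp)
  obtain ⟨y, rfl, h⟩ := M.sel h.2 (K := stabilizer G (pt a) ⊓ stabilizer G (pt b))
    (fun l hl => ⟨M.fix h.1 List.mem_cons_self hl, M.fix h.1 (by simp) hl⟩)
    (fun u hu => hi u hu.1 hu.2) (g.nb a ha ▸ hT)
  simp only [bor_eq_true, nb_eq_true, Nat.beq_eq, M.pc_eq, plane_eq M.X, SO_land M.X, ← g.nb a ha,
    ← g.nb b hb'] at h
  rw [show Nat.sub k (SO c pt y).ncard.succ = ν from by show k - (_ + 1) = ν; omega] at h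
  rcases h with h | h | h | h
  exacts [absurd ((pt_mem M.X hb').2 h) hb, Or.inl h, absurd (Nat.mod_eq_zero_of_dvd hl) h, Or.inr h]

noncomputable def u3Ok (c : Cfg) (pl nt NB : ℕ → ℕ) (a d D : ℕ) (w R : List ℕ) : Bool :=
  band (fixL c pl [a, d] w) (force (Nat.land (NB d) D) fun A => selOk c nt w R D fun y => bor (mb c y d)
    (bor (nb (Nat.beq (pc c y) (pc c A))) (Nat.beq (plane c 0 y) (plane c 0 A))))

theorem NM.u3 (M : NM c pt pl nt lt) {a b d D : ℕ} (g : GM c pt (Nb G (pt a) (pt b)) NB)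
    (hD : Nb G (pt a) (pt d) (pt a) = SO c pt D) {w R : List ℕ}
    (h : u3Ok c pl nt NB a d D w R = true) : U3 G (pt a) (pt b) (pt d) := fun T hT hb hi hc => by
  simp only [u3Ok, band_eq_true, force_eq] at h
  have hd : d < c.n := lt_of_fixL h.1 (by simp)
  obtain ⟨y, rfl, h⟩ := M.sel h.2 (K := stabilizer G (pt a) ⊓ stabilizer G (pt d))
    (fun l hl => ⟨M.fix h.1 List.mem_cons_self hl, M.fix h.1 (by simp) hl⟩)
    (fun u hu => hi u hu.1 hu.2) (hD ▸ hT)
  simp only [bor_eq_true, nb_eq_true, Nat.beq_eq, M.pc_eq, plane_eq M.X, SO_land M.X, ← hD, ← g.nb d hd] at h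
  rcases h with h | h | h
  exacts [absurd ((pt_mem M.X hd).2 h) hb, absurd hc h, h]

noncomputable def capL (NB : ℕ → ℕ) (x : ℕ) (L : List ℕ) : ℕ :=
  List.rec (motive := fun _ => ℕ) x (fun p _ ih => Nat.land ih (NB p)) L

/-- `y` is the set of the common neighbours of `a` and `e.1`, the points of `e.2` determine `e.1` -/
noncomputable def goodAt (c : Cfg) (NB : ℕ → ℕ) (a D y : ℕ) (e : ℕ × List ℕ) : Bool :=
  band (band (Nat.ble (Nat.succ e.1) c.n) (mb c D e.1))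
    (band (Nat.beq (plane c 0 y) (plane c 0 (Nat.land (NB e.1) (NB a))))
      (band (allL (fun p => band (Nat.ble (Nat.succ p) c.n) (mb c y p)) e.2) (Nat.ble (pc c (capL NB D e.2)) 1)))

noncomputable def p2 (c : Cfg) (NB : ℕ → ℕ) (a D μ : ℕ) (Bs : List ℕ) (E : List (ℕ × List ℕ)) (y : ℕ) : Bool :=
  bor (nb (Nat.beq (pc c y) μ)) (bor (anyL (Nat.beq y) Bs) (anyL (goodAt c NB a D y) E))

theorem GM.c2 {a b d D k l y : ℕ} (g : GM c pt (Nb G (pt a) (pt b)) NB) (r : Rk3 G (pt a) (pt b) (pt d) k l)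
    (ha : a < c.n) (hD : Nb G (pt a) (pt d) (pt a) = SO c pt D) {K : Subgroup G} (hK : K ≤ stabilizer G (pt a))
    (hi : ∀ u ∈ K, ∀ z ∈ SO c pt y, u • z ∈ SO c pt y) {e : ℕ × List ℕ} (h : goodAt c NB a D y e = true) :
    C2 G (pt a) (pt b) (pt d) K (SO c pt y) := by
  have := g.finite
  simp only [goodAt, band_eq_true, Nat.ble_eq, Nat.beq_eq, allL_iff, plane_eq g.X, SO_land g.X, g.pc] at h
  obtain ⟨⟨h1, h2⟩, h3, h4, h5⟩ := h
  rw [← g.nb _ h1, ← g.nb a ha] at h3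
  have h6 : pt e.1 ∈ Nb G (pt a) (pt d) (pt a) := hD ▸ (pt_mem g.X h1).2 h2
  have key : ∀ u ∈ K, u • pt e.1 ∈ SO c pt (capL NB D e.2) := fun u hu => by
    generalize e.2 = L at h4
    induction L with
    | nil => exact hD ▸ (smul_mem_Nb_fix (hK hu)).2 h6
    | cons p L ih =>
      rw [List.forall_mem_cons] at h4
      show _ ∈ SO c pt (Nat.land (capL NB D L) (NB p))
      rw [SO_land g.X, ← g.nb p h4.1.1]
      refine ⟨ih h4.2, r.symm ?_⟩
      have := hi _ (inv_mem hu) _ ((pt_mem g.X h4.1.1).2 h4.1.2)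
      rw [h3] at this
      simpa using smul_mem_Nb u this.1
  exact C2.of_eq h6 h3 fun u hu => (Set.ncard_le_one (Set.toFinite _)).1 h5 _ (key u hu) _
    (by simpa using key 1 (one_mem _))

theorem NM.c2 (M : NM c pt pl nt lt) {a b d D k l μ : ℕ} (g : GM c pt (Nb G (pt a) (pt b)) NB)
    (r : Rk3 G (pt a) (pt b) (pt d) k l) (ha : a < c.n) (hD : Nb G (pt a) (pt d) (pt a) = SO c pt D)
    {w R Bs : List ℕ} {E : List (ℕ × List ℕ)} (hB : ∀ y ∈ Bs, Big G c pt (stabilizer G (pt a)) l y)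
    (h : selOk c nt w R (NB a) (p2 c NB a D μ Bs E) = true) {K : Subgroup G} (hK : K ≤ stabilizer G (pt a))
    (hk : Nat.card K * l = Nat.card (stabilizer G (pt a))) (hw : ∀ l ∈ w, lt l ∈ K) {Y : Set Ω}
    (hY : Y ⊆ Nb G (pt a) (pt b) (pt a)) (hi : ∀ u ∈ K, ∀ z ∈ Y, u • z ∈ Y) (hc : Y.ncard = μ) :
    C2 G (pt a) (pt b) (pt d) K Y := by
  obtain ⟨y, rfl, h⟩ := M.sel h hw hi (g.nb a ha ▸ hY)
  simp only [p2, bor_eq_true, nb_eq_true, Nat.beq_eq, anyL_iff, M.pc_eq] at h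
  rcases h with h | ⟨z, hz, rfl⟩ | ⟨e, -, h⟩
  exacts [absurd hc h, absurd hi (hB y hz K hK hk), g.c2 r ha hD hK hi h]

theorem eqns_crit : True := by
  have := @C2.eq_1.{0, 0}
  have := @gp.eq_1.{0}
  have := @subL.eq_1
  have := @actW.eq_1
  have := @Big.eq_1.{0, 0}
  have := @nrmOk.eq_1
  have := @nb.eq_1
  have := @p0.eq_1
  have := @u1Ok.eq_1
  have := @u3Ok.eq_1
  have := @goodAt.eq_1
  have := @p2.eq_1
  exact True.intro

end H19.R3
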