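import Cfsg.Agent.Lib.Rk19.Cov

/-! Walks in batches, invariant sets of groups generated by words, subgroups containing a Frobenius group. -/

set_option autoImplicit false

namespace H19.R3

open H54 MulAction
open scoped Pointwise

section walk
variable {Y : Type*} {obj : ℕ → Y} {act : ℕ → ℕ → ℕ} {hash : ℕ → ℕ} {S Ts : List ℕ} {x seen N : ℕ}

/-- a walk from new starting points; only the marks and the count are kept -/
noncomputable def orbBatch (act : ℕ → ℕ → ℕ) (hash : ℕ → ℕ) (S : List ℕ) (K : ℕ) (ws Ts : List ℕ)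
    (x seen N seen' N' : ℕ) : Bool :=
  orbGens act hash (fun _ => 0) x (fun _ => orbRun act hash (fun _ => 0) S K
    (fun _ e c _ => band (Nat.beq e seen') (Nat.beq c N')) ws) Ts (Nat.pred (Nat.shiftLeft 1 (len Ts))) [] seen N 0

def WalkB (obj : ℕ → Y) (act : ℕ → ℕ → ℕ) (hash : ℕ → ℕ) (S Ts : List ℕ) (x seen N : ℕ) : Prop :=
  ∀ P : ℕ → Prop, OrbSpec obj P act hash (fun _ => 0) (fun _ => 0) S → (∀ T ∈ Ts, P (act T x)) →
    OrbInv obj P hash (fun _ => 0) [] seen N 0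

theorem WalkB.nil : WalkB obj act hash S [] x 0 0 := fun _ _ _ => orbInv_empty

theorem WalkB.step (w : WalkB obj act hash S Ts x seen N) {K : ℕ} {ws Ts' : List ℕ} {seen' N' : ℕ}
    (h : orbBatch act hash S K ws Ts' x seen N seen' N' = true) : WalkB obj act hash S (Ts ++ Ts') x seen' N' := by
  intro P sp hT
  rw [List.forall_mem_append] at hT
  obtain ⟨_, s, e, c, a, I, h2⟩ := orbGens_sound sp.key sp.wt Ts' hT.2 _ _ _ _ _ (w P sp hT.1) h
  obtain ⟨s, e, c, a, ⟨-, F, h3, h4, -⟩, h5⟩ := orbRun_sound sp ws _ _ _ _ I h2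
  simp only [band_eq_true, Nat.beq_eq] at h5
  obtain ⟨rfl, rfl⟩ := h5
  exact ⟨by simp, F, h3, h4, by simp⟩

theorem WalkB.walk (w : WalkB obj act hash S Ts x seen N) : Walk obj act hash S Ts x N :=
  fun P sp hT => (w P sp hT).finset

end walk

variable {G Ω : Type*} [Group G] [MulAction G Ω] {c : Cfg} {pt : ℕ → Ω} {pl nt NB : ℕ → ℕ} {lt : ℕ → G}

/-- a Frobenius group in a subgroup of known order -/
theorem frob_mem [Finite G] {H K : Subgroup G} (hK : K ≤ H) {z w : G} {p d : ℕ} (pp : p.Prime) (hz : z ∈ K)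
    (ho : orderOf z = p) (h2 : (Nat.card K).factorization p = 1)
    (hC : ∀ g ∈ H, g * z = z * g → ∃ i : ℕ, g = z ^ i)
    (hd : ∀ e n, e ∣ p - 1 → n % p = 1 % p → p * e * n = Nat.card K → e = d) (hw : w ∈ H)
    (hn : w ∈ Subgroup.normalizer (Subgroup.zpowers z : Set G)) (hc : w ^ d * z = z * w ^ d) :
    w ∈ K ∧ Nat.card (K ⊓ Subgroup.normalizer (Subgroup.zpowers z : Set G) : Subgroup G) = p * d := by
  have := Fact.mk pp
  set Z := Subgroup.zpowers z
  have hZ : Nat.card Z = p := by rw [Nat.card_zpowers, ho]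
  have hZK : Z ≤ K := Subgroup.zpowers_le.2 hz
  have cy := ZMod.isCyclic_units_prime (hZ ▸ pp)
  have : NeZero (Nat.card Z) := ⟨Nat.card_pos.ne'⟩
  let φ := (IsCyclic.mulAutMulEquiv Z).toMonoidHom.comp Z.normalizerMonoidHom
  have hφ : ∀ g, φ g = 1 ↔ (g : G) * z = z * g := fun g => by
    refine (map_eq_one_iff _ (IsCyclic.mulAutMulEquiv Z).injective).trans ?_
    rw [← MonoidHom.mem_ker, Subgroup.normalizerMonoidHom_ker, Subgroup.mem_subgroupOf,
      ← Subgroup.mem_centralizer_singleton_iff, ← Subgroup.centralizer_closure {z}, ← Subgroup.zpowers_eq_closure]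
  let A := K.subgroupOf (Subgroup.normalizer (Z : Set G))
  let ψ := φ.comp A.subtype
  have e1 : Nat.card ψ.ker = p := by
    rw [← hZ]
    refine Nat.card_congr ⟨fun g => ⟨g.1.1, ?_⟩, fun g => ⟨⟨⟨g, Subgroup.le_normalizer g.2⟩, hZK g.2⟩, ?_⟩,
      fun _ => rfl, fun _ => rfl⟩
    · obtain ⟨i, hi⟩ := hC _ (hK g.1.2) ((hφ _).1 g.2)
      exact (show (g.1.1 : G) = _ from hi) ▸ Subgroup.npow_mem_zpowers z i
    · obtain ⟨_, i, rfl⟩ := g
      exact (hφ _).2 (Commute.zpow_self z i)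
  have e2 : Nat.card A = Nat.card (K ⊓ Subgroup.normalizer (Z : Set G) : Subgroup G) := by
    rw [← Subgroup.subgroupOf_map_subtype, Subgroup.card_subtype]
  have e3 := ψ.ker.card_mul_index
  rw [Subgroup.index_ker, e1] at e3
  have e4 : Nat.card (ZMod (Nat.card Z))ˣ = p - 1 := by
    rw [hZ, Nat.card_eq_fintype_card, ZMod.card_units]
  let P : Sylow p K := Sylow.ofCard (Z.subgroupOf K) (by
    rw [h2, pow_one, Nat.card_congr (Subgroup.subgroupOfEquivOfLe hZK).toEquiv, hZ])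
  have e5 := ((Subgroup.normalizer (Z : Set G)).subgroupOf K).card_mul_index
  rw [← Subgroup.card_subtype, Subgroup.subgroupOf_map_subtype, inf_comm, ← e2, ← e3,
    Subgroup.subgroupOf_normalizer_eq hZK] at e5
  have e6 := hd _ _ (e4 ▸ Subgroup.card_subgroup_dvd_card ψ.range)
    (P.card_eq_index_normalizer ▸ card_sylow_modEq_one p K) e5
  refine ⟨?_, by rw [← e2, ← e3, e6]⟩
  have e7 : ψ.range = (powMonoidHom d).ker := Subgroup.eq_of_le_of_card_ge
    (fun a ha => show a ^ d = 1 from e6 ▸ congrArg Subtype.val (pow_card_eq_one' (x := (⟨a, ha⟩ : ψ.range))))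
    (by rw [IsCyclic.card_powMonoidHom_ker, e6]; exact Nat.gcd_le_right _ (e6 ▸ Nat.card_pos))
  obtain ⟨y, hy⟩ : φ ⟨w, hn⟩ ∈ ψ.range := e7 ▸ (map_pow φ _ d).symm.trans ((hφ _).2 hc)
  obtain ⟨i, hi⟩ := hC ((y.1⁻¹ * ⟨w, hn⟩ : Subgroup.normalizer _) : G) (H.mul_mem (H.inv_mem (hK y.2)) hw)
    ((hφ (y.1⁻¹ * ⟨w, hn⟩)).1 (by rw [map_mul, map_inv, ← hy]; exact inv_mul_cancel _))
  exact (K.mul_mem_cancel_left (K.inv_mem y.2)).1 ((show _ * w = _ from hi) ▸ K.pow_mem hz i)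

/-- a group of letters is a full point stabiliser -/
theorem NM.full [Finite G] (M : NM c pt pl nt lt) {a : ℕ} {L : List ℕ} {ch : BC}
    (h : band (fixL c pl [a] L) (blow c.n (wp c pl) (pall fun l => anyL (Nat.beq l) L) ch []) = true)
    (e : Nat.card (stabilizer G (pt a)) ≤ ch.size) :
    gp lt L = stabilizer G (pt a) ∧ BLow pt ch (stabilizer G (pt a)) := by
  rw [band_eq_true] at h
  have h1 : gp lt L ≤ stabilizer G (pt a) := gp_le fun l hl => M.fix h.1 List.mem_cons_self hl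
  have h2 := Subgroup.eq_of_le_of_card_ge h1 (e.trans (M.le_card_gp h.2))
  exact ⟨h2, bLow_of_check M.X (fun a ha => ⟨_, pw_mem (fun l hl => by
    obtain ⟨a, ha, e⟩ := (anyL_iff _ _).1 hl
    exact h1 (mem_gp (Nat.eq_of_beq_eq_true e ▸ ha))) ha, repF_wp M.rep a⟩) h.2⟩

/-! ### invariant sets of a group generated by words -/

/-- the bits outside the mask `L` carry labels (the kernel hashes numbers by their low bits) -/
noncomputable def satW (c : Cfg) (nt : ℕ → ℕ) (L : ℕ) (Y : List (List ℕ)) (w : List ℕ) : ℕ → ℕ :=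
  List.rec (motive := fun _ => ℕ → ℕ) (fun x => x)
    (fun l _ ih x => force (Nat.lor (Nat.land x L) (netL c nt (nthW Y l) x)) ih) w

noncomputable def selW (c : Cfg) (nt : ℕ → ℕ) (L Z : ℕ) (Y : List (List ℕ)) (w R : List ℕ) (D : ℕ)
    (P : ℕ → Bool) : Bool :=
  force (len R) fun m => force (Nat.lor (seed c R) Z) fun x0 => force (satW c nt L Y w x0) fun x =>
    band (Nat.ble m c.b) (band (allLt (fun k => Nat.beq (plane c k x0) (sg c (nth R k))) m)
      (band (Nat.beq (Nat.land D (uni c x (Nat.pred (Nat.pow 2 m)) m)) (plane c 0 D))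
        (allLt (fun σ => force (uni c x σ m) P) (Nat.pow 2 m))))

theorem NM.hg_satW (M : NM c pt pl nt lt) {K : Subgroup G} {T : Set Ω} (hK : ∀ g ∈ K, ∀ z ∈ T, g • z ∈ T)
    {Y : List (List ℕ)} (hY : ∀ v ∈ Y, lw lt v ∈ K) {m L : ℕ} :
    ∀ (w : List ℕ) (x : ℕ), Hg c pt T m x → Hg c pt T m (satW c nt L Y w x)
  | [], _, h => h
  | l :: w, x, h => by
    refine M.hg_satW hK hY w (x &&& L ||| netL c nt (nthW Y l) x) ?_
    have hl : lw lt (nthW Y l) ∈ K := (nthW_mem Y l).elim (fun e => e ▸ one_mem K) (hY _)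
    have r := M.repL (nthW Y l)
    have key : ∀ k i, i < c.n → (c.get (x &&& L ||| netL c nt (nthW Y l) x) i).testBit k = true →
        ∃ j, j < c.n ∧ (c.get x j).testBit k = true ∧ (pt i ∈ T ↔ pt j ∈ T) := by
      intro k i hi e
      rw [M.X.ok.get_eq, dig_or, dig_and, Nat.testBit_or, Nat.testBit_and, Bool.or_eq_true, Bool.and_eq_true,
        ← M.X.ok.get_eq, ← M.X.ok.get_eq, ← M.X.ok.get_eq, get_netL M.X _ _ _ (hi.trans_le M.X.ok.n_le)] at e
      rcases e with e | e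
      · exact ⟨i, hi, e.1, Iff.rfl⟩
      · refine ⟨_, (r i hi).1, e, ?_⟩
        rw [← (r i hi).2]
        exact ⟨hK _ hl _, fun h => by simpa using hK _ (K.inv_mem hl) _ h⟩
    intro k i j hk hi hj e e' hT
    obtain ⟨i', hi', e1, e2⟩ := key k i hi e
    obtain ⟨j', hj', e3, e4⟩ := key k j hj e'
    exact e4.2 (h k i' j' hk hi' hj' e1 e3 (e2.1 hT))

theorem NM.selW (M : NM c pt pl nt lt) {Y : List (List ℕ)} {w R : List ℕ} {D L Z : ℕ} {P : ℕ → Bool}
    (h : selW c nt L Z Y w R D P = true) {K : Subgroup G} (hY : ∀ v ∈ Y, lw lt v ∈ K) {T : Set Ω}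
    (hK : ∀ g ∈ K, ∀ z ∈ T, g • z ∈ T) (hD : T ⊆ SO c pt D) : ∃ y, T = SO c pt y ∧ P y = true := by
  classical
  simp only [R3.selW, force_eq, band_eq_true, Nat.ble_eq, allLt_iff, Nat.beq_eq] at h
  obtain ⟨h1, h2, h3, h4⟩ := h
  have X := M.X
  have g := M.hg_satW hK hY (L := L) w (Nat.lor (seed c R) Z) (m := len R) fun k i j hk hi hj e e' hT => by
    rw [← mb_plane X (by omega) _ hi, h2 k hk, mb_sg X] at e
    rw [← mb_plane X (by omega) _ hj, h2 k hk, mb_sg X] at e'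
    exact (e.trans e'.symm) ▸ hT
  generalize satW c nt L Y w _ = x at g h3 h4
  let σ := Nat.ofBits fun k : Fin (len R) => decide (∃ i, i < c.n ∧ (c.get x i).testBit k = true ∧ pt i ∈ T)
  refine ⟨_, ?_, h4 σ (Nat.ofBits_lt_two_pow _)⟩
  ext z
  obtain ⟨i, hi, rfl⟩ := M.surj z
  rw [pt_mem X hi, mb_uni X _ _ hi _ h1]
  constructor
  · intro hT
    have e := congrArg (mb c · i) h3
    simp only [mb_land, mb_plane X X.ok.b_pos _ hi, ← mb_eq X, (pt_mem X hi).1 (hD hT), Bool.true_and] at e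
    obtain ⟨k, hk, -, e⟩ := (mb_uni X _ _ hi _ h1).1 e
    exact ⟨k, hk, by rw [Nat.testBit_ofBits_lt _ _ hk, decide_eq_true_iff]; exact ⟨i, hi, e, hT⟩, e⟩
  · rintro ⟨k, hk, e, e'⟩
    rw [Nat.testBit_ofBits_lt _ _ hk, decide_eq_true_iff] at e
    obtain ⟨j, hj, e1, e2⟩ := e
    exact g k j i hk hj hi e1 e' e2

noncomputable def u2At (c : Cfg) (pl nt NB : ℕ → ℕ) (r B a D μ t L Z : ℕ) (HL SL : List ℕ) (E : List (ℕ × List ℕ))
    (e : List ℕ × List ℕ × List ℕ × List ℕ) : Bool :=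
  band (subL e.1 HL) (bor (isNil e.1) (band (Nat.beq (wlT c pl r (e.1 ++ e.2.1) B) (wlT c pl r [] B))
    (force (NB a) fun A => selW c nt L Z ((e.2.1 ++ t :: e.1) :: SL.map fun l => [l]) e.2.2.1 e.2.2.2 A
      (p2 c NB a D μ [] E))))

theorem allL_app {α : Type} {f : α → Bool} {l l' : List α} (h : allL f l = true) (h' : allL f l' = true) :
    allL f (l ++ l') = true := by
  rw [allL_iff] at *
  exact List.forall_mem_append.2 ⟨h, h'⟩

theorem NM.c2_cover [Finite G] [DecidableEq Ω] (M : NM c pt pl nt lt) {r B : ℕ} (bs : IsBase G c pt r B)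
    {a b d D k l μ t x N L Lm Z : ℕ} (g : GM c pt (Nb G (pt a) (pt b)) NB) (rk : Rk3 G (pt a) (pt b) (pt d) k l)
    (hD : Nb G (pt a) (pt d) (pt a) = SO c pt D) {SL HL NL Sg Ts : List ℕ} {E : List (ℕ × List ℕ)}
    {T : GT (List ℕ × List ℕ × List ℕ × List ℕ)}
    (hf : band (fixL c pl [a] HL) (band (allL (fun j => subL (T.get j).1 SL) Sg) (nrmOk c pl nt r B a x t NL)) = true)
    (hT : allL (fun j => u2At c pl nt NB r B a D μ t Lm Z HL SL E (T.get j)) Ts = true) {h : ℕ → ℕ}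
    (w : Walk (setObj c pt 0) (actW c nt fun j => (T.get j).1) (fun a => h (plane c 0 a)) Sg Ts x N)
    (hL : L ≤ Nat.card (gp lt NL)) (hN : Nat.card (stabilizer G (pt a)) ≤ L * N) {K : Subgroup G}
    (hK : K ≤ stabilizer G (pt a)) (hS : gp lt SL ≤ K)
    (ht : lt t ∈ K) (hs : Nat.card (gp lt SL) * Nat.gcd L (Nat.card K) < Nat.card K) {Y : Set Ω}
    (hY : Y ⊆ Nb G (pt a) (pt b) (pt a)) (hi : ∀ u ∈ K, ∀ z ∈ Y, u • z ∈ Y) (hc : Y.ncard = μ) :
    C2 G (pt a) (pt b) (pt d) K Y := by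
  simp only [band_eq_true, allL_iff] at hf
  simp only [allL_iff, u2At, band_eq_true, bor_eq_true, force_eq] at hT
  obtain ⟨f1, f2, f3⟩ := hf
  obtain ⟨n1, n2, n3⟩ := M.nrm bs f3
  have ha : a < c.n := lt_of_fixL f1 List.mem_cons_self
  have := M.finite
  have hu : ∀ j ∈ Ts, lw lt (T.get j).1 ∈ stabilizer G (pt a) := fun j hj => lw_mem fun l hl =>
    M.fix f1 List.mem_cons_self (mem_of_subL (hT j hj).1 l hl)
  have hg : ∀ j ∈ Sg, lw lt (T.get j).1 ∈ gp lt SL := fun j hj =>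
    lw_mem fun l hl => mem_gp (mem_of_subL (f2 j hj) l hl)
  obtain ⟨e1, cov⟩ := M.dcover (hS.trans hK) hg hu w n1 n2 hL hN
  have e2 : Nat.card (gp lt NL) = L := by
    have h1 := le_ncard_of_le_encard (Set.toFinite _) ((objSpec_W M.X _).cover (hS.trans hK)
      (fun j hj => ⟨_, hg j hj, M.repL _⟩) (fun j hj => ⟨_, hu j hj, M.repL _⟩) trivial w).1
    have h2 := card_eq_orbit_mul (stabilizer G (pt a)) (setObj c pt 0 x)
    have h3 : 0 < Nat.card (stabilizer G (pt a)) := Nat.card_pos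
    rw [e1] at h2
    exact le_antisymm (Nat.le_of_mul_le_mul_right (by nlinarith) (Nat.pos_of_mul_pos_left (h3.trans_le hN))) hL
  by_contra hne
  have key : ∀ u ∈ K, ∃ s ∈ gp lt SL, ∃ n ∈ gp lt NL ⊓ K, s * n = u := fun u hu => by
    obtain ⟨j, hj, s, hs, n, hn, rfl⟩ := cov u (hK hu)
    obtain ⟨-, h1 | ⟨h1, h2⟩⟩ := hT j hj
    · rw [eq_nil_of_isNil h1, lw_nil, inv_one, mul_one] at hu ⊢
      exact ⟨s, hs, n, ⟨hn, (K.mul_mem_cancel_left (hS hs)).1 hu⟩, rfl⟩
    · have h3 := conj_mem_of_norm (n3 hn) (hS hs) (K.mul_mem (K.mul_mem hu ht) (K.inv_mem hu))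
      have h4 := lw_eq M.X M.rep bs h1
      rw [lw_append, lw_nil] at h4
      obtain ⟨y, rfl, h5⟩ := M.selW h2 (K := K) (List.forall_mem_cons.2 ⟨by
        rwa [lw_append, lw_cons, eq_inv_of_mul_eq_one_right h4, ← mul_assoc], fun v hv => by
          obtain ⟨l, hl, rfl⟩ := List.mem_map.1 hv
          rw [lw_cons, lw_nil, mul_one]
          exact hS (mem_gp hl)⟩) hi (g.nb a ha ▸ hY)
      simp only [p2, bor_eq_true, nb_eq_true, Nat.beq_eq, anyL_iff, M.pc_eq] at h5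
      rcases h5 with h5 | ⟨z, hz, -⟩ | ⟨e, -, h5⟩
      exacts [absurd hc h5, absurd hz List.not_mem_nil, absurd (g.c2 rk ha hD hK hi h5) hne]
  have h1 := Nat.card_le_card_of_surjective
    (fun p : gp lt SL × (gp lt NL ⊓ K : Subgroup G) => (⟨p.1 * p.2, K.mul_mem (hS p.1.2) p.2.2.2⟩ : K))
    fun u => by
      obtain ⟨s, hs, n, hn, e⟩ := key u u.2
      exact ⟨(⟨s, hs⟩, ⟨n, hn⟩), Subtype.ext e⟩
  have h2 := Nat.le_of_dvd (Nat.gcd_pos_of_pos_right L Nat.card_pos) (Nat.dvd_gcd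
    (e2 ▸ Subgroup.card_dvd_of_le (inf_le_left (b := K))) (Subgroup.card_dvd_of_le (inf_le_right (a := gp lt NL))))
  rw [Nat.card_prod] at h1
  exact absurd (h1.trans (Nat.mul_le_mul_left _ h2)) hs.not_ge

theorem eqns_frob : True := by
  have := @orbBatch.eq_1
  have := @WalkB.eq_1.{0}
  have := @selW.eq_1
  have := @u2At.eq_1
  exact True.intro

end H19.R3
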