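import Cfsg.Agent.Lib.Rk19.Basic

/-! Rigidity of rank 3 graphs: two rank 3 actions with isomorphic point stabilisers have isomorphic orbital
graphs, given four uniqueness facts about the model. -/

set_option autoImplicit false

namespace H19.R3

open MulAction

variable {G₀ Ω₀ G Ω : Type*} [Group G₀] [MulAction G₀ Ω₀] [Group G] [MulAction G Ω]
  {a₀ b₀ c₀ : Ω₀} {a b c : Ω} {k l : ℕ}

/-- `y₀` and `y` have the same stabiliser -/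
def Same (θ : stabilizer G₀ a₀ ≃* stabilizer G a) (y₀ : Ω₀) (y : Ω) : Prop :=
  ∀ h : stabilizer G₀ a₀, (θ h : G) • y = y ↔ (h : G₀) • y₀ = y₀

/-- the pull back of a set of points of the orbit of `y` -/
def pull (θ : stabilizer G₀ a₀ ≃* stabilizer G a) (y₀ : Ω₀) (y : Ω) (T : Set Ω) : Set Ω₀ :=
  {z | ∃ h : stabilizer G₀ a₀, (h : G₀) • y₀ = z ∧ (θ h : G) • y ∈ T}

/-- the stabiliser of `y` in the model -/
def pst (θ : stabilizer G₀ a₀ ≃* stabilizer G a) (y : Ω) : Subgroup G₀ :=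
  (((stabilizer G y).comap (stabilizer G a).subtype).comap θ.toMonoidHom).map (stabilizer G₀ a₀).subtype

variable {θ : stabilizer G₀ a₀ ≃* stabilizer G a} {y₀ : Ω₀} {y : Ω}

theorem mem_pst {h : stabilizer G₀ a₀} : (h : G₀) ∈ pst θ y ↔ (θ h : G) • y = y :=
  ⟨fun ⟨u, hu, e⟩ => (Subtype.ext e : u = h) ▸ hu, fun e => ⟨h, e, rfl⟩⟩

theorem pst_le : pst θ y ≤ stabilizer G₀ a₀ := fun _ ⟨u, _, e⟩ => e ▸ u.2

theorem card_pst [Finite G] : Nat.card (pst θ y) * (Nb G a y a).ncard = Nat.card (stabilizer G₀ a₀) := by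
  rw [Nat.card_congr θ.toEquiv, card_stab_eq a y, mul_comm]
  congr 1
  refine Nat.card_congr ⟨fun v => ⟨θ ⟨v.1, pst_le v.2⟩, (θ _).2, mem_pst.1 v.2⟩,
    fun v => ⟨θ.symm ⟨v.1, v.2.1⟩, mem_pst.2 (by rw [θ.apply_symm_apply]; exact v.2.2)⟩,
    fun v => Subtype.ext (by simp), fun v => Subtype.ext (by simp)⟩

theorem Same.eq_iff (s : Same θ y₀ y) (h h' : stabilizer G₀ a₀) :
    (θ h : G) • y = (θ h' : G) • y ↔ (h : G₀) • y₀ = (h' : G₀) • y₀ := by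
  have := s (h'⁻¹ * h)
  rwa [map_mul, map_inv, Subgroup.coe_mul, Subgroup.coe_mul, Subgroup.coe_inv, Subgroup.coe_inv, mul_smul,
    mul_smul, inv_smul_eq_iff, inv_smul_eq_iff] at this

theorem Same.mem_pull (s : Same θ y₀ y) {T : Set Ω} (h : stabilizer G₀ a₀) :
    (h : G₀) • y₀ ∈ pull θ y₀ y T ↔ (θ h : G) • y ∈ T :=
  ⟨fun ⟨u, e, hu⟩ => (s.eq_iff u h).2 e ▸ hu, fun e => ⟨h, rfl, e⟩⟩

theorem pull_subset {T : Set Ω} : pull θ y₀ y T ⊆ Nb G₀ a₀ y₀ a₀ := fun _ ⟨h, e, _⟩ => ⟨h, h.2, e⟩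

theorem Same.pull_inv (s : Same θ y₀ y) {T : Set Ω} (h : stabilizer G₀ a₀)
    (hT : ∀ z ∈ T, (θ h : G) • z ∈ T) : ∀ z ∈ pull θ y₀ y T, (h : G₀) • z ∈ pull θ y₀ y T := by
  rintro _ ⟨u, rfl, hu⟩
  rw [← mul_smul, ← Subgroup.coe_mul, s.mem_pull, map_mul, Subgroup.coe_mul, mul_smul]
  exact hT _ hu

open Classical in
/-- the equivariant map from the orbit of `y₀` to the orbit of `y` -/
noncomputable def tr (θ : stabilizer G₀ a₀ ≃* stabilizer G a) (y₀ : Ω₀) (y : Ω) (z : Ω₀) : Ω :=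
  if h : ∃ g : stabilizer G₀ a₀, (g : G₀) • y₀ = z then (θ h.choose : G) • y else y

theorem Same.tr_smul (s : Same θ y₀ y) (h : stabilizer G₀ a₀) :
    tr θ y₀ y ((h : G₀) • y₀) = (θ h : G) • y := by
  have hex : ∃ g : stabilizer G₀ a₀, (g : G₀) • y₀ = (h : G₀) • y₀ := ⟨h, rfl⟩
  rw [tr, dif_pos hex]
  exact (s.eq_iff _ _).2 hex.choose_spec

theorem Same.ncard_pull (s : Same θ y₀ y) (T : Set Ω) :
    (pull θ y₀ y T).ncard = (T ∩ Nb G a y a).ncard := by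
  rw [← Set.InjOn.ncard_image (f := tr θ y₀ y)]
  · congr 1
    ext z
    constructor
    · rintro ⟨_, ⟨h, rfl, hh⟩, rfl⟩
      rw [s.tr_smul]
      exact ⟨hh, θ h, (θ h).2, rfl⟩
    · rintro ⟨hz, g, e, rfl⟩
      obtain ⟨h, e'⟩ := θ.surjective ⟨g, e⟩
      have e2 : (θ h : G) = g := congrArg Subtype.val e'
      exact ⟨_, ⟨h, rfl, e2 ▸ hz⟩, by rw [s.tr_smul, e2]⟩
  · rintro _ ⟨h, rfl, -⟩ _ ⟨h', rfl, -⟩ e
    rw [s.tr_smul, s.tr_smul] at e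
    exact (s.eq_iff _ _).1 e

theorem same_of_le [Finite G₀] [Finite G] {y₁ : Ω₀} (h : pst θ y ≤ stabilizer G₀ y₁)
    (e : (Nb G₀ a₀ y₁ a₀).ncard = (Nb G a y a).ncard) : Same θ y₁ y := by
  have h1 : pst θ y = stabilizer G₀ a₀ ⊓ stabilizer G₀ y₁ := by
    refine Subgroup.eq_of_le_of_card_ge (le_inf pst_le h) (le_of_eq ?_)
    have h2 := card_pst (θ := θ) (y := y)
    have h3 := card_stab_eq (G := G₀) a₀ y₁
    have h4 : 0 < (Nb G a y a).ncard := Nat.pos_of_ne_zero fun e => by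
      rw [e, mul_zero] at h2
      exact Nat.card_pos.ne h2
    rw [← h2, e, mul_comm] at h3
    exact (Nat.eq_of_mul_eq_mul_left h4 h3).symm
  intro u
  rw [← mem_pst, h1]
  exact ⟨fun e => e.2, fun e => ⟨u.2, e⟩⟩

theorem Same.conj (u : stabilizer G₀ a₀) (s : Same θ ((u : G₀) • y₀) y) :
    Same θ y₀ ((θ u⁻¹ : G) • y) := by
  intro h
  have := s (u * h * u⁻¹)
  simp only [map_mul, map_inv, Subgroup.coe_mul, Subgroup.coe_inv, mul_smul, inv_smul_smul,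
    smul_left_cancel_iff] at this
  rw [← this, map_inv, Subgroup.coe_inv, eq_inv_smul_iff]

variable (G₀) in
/-- subgroups of index `k` of the point stabiliser fix a neighbour -/
def U0 (a₀ b₀ : Ω₀) (k : ℕ) : Prop := ∀ M : Subgroup G₀, M ≤ stabilizer G₀ a₀ →
  Nat.card M * k = Nat.card (stabilizer G₀ a₀) → ∃ b₁ ∈ Nb G₀ a₀ b₀ a₀, M ≤ stabilizer G₀ b₁

variable (G₀) in
/-- the local graph is determined -/
def U1 (a₀ b₀ : Ω₀) (k l : ℕ) : Prop := ∀ T ⊆ Nb G₀ a₀ b₀ a₀, b₀ ∉ T →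
  (∀ g : G₀, g • a₀ = a₀ → g • b₀ = b₀ → ∀ z ∈ T, g • z ∈ T) → ∀ ν, k = 1 + T.ncard + ν → l ∣ k * ν →
    ν = 0 ∨ T = Nb G₀ a₀ b₀ b₀ ∩ Nb G₀ a₀ b₀ a₀

variable (G₀) in
/-- the sets of common neighbours of two non-adjacent points are determined, up to an automorphism -/
def U2 (a₀ b₀ c₀ : Ω₀) (l : ℕ) : Prop := ∀ M : Subgroup G₀, M ≤ stabilizer G₀ a₀ →
  Nat.card M * l = Nat.card (stabilizer G₀ a₀) → ∀ Y ⊆ Nb G₀ a₀ b₀ a₀, (∀ g ∈ M, ∀ z ∈ Y, g • z ∈ Y) →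
  Y.ncard = (Nb G₀ a₀ b₀ c₀ ∩ Nb G₀ a₀ b₀ a₀).ncard →
  ∃ σ : MulAut (stabilizer G₀ a₀), (∀ h, (σ h : G₀) • b₀ = b₀ ↔ (h : G₀) • b₀ = b₀) ∧
    ∃ c₁ ∈ Nb G₀ a₀ c₀ a₀, (∀ h, (σ h : G₀) • b₀ ∈ Nb G₀ a₀ b₀ c₁ ↔ (h : G₀) • b₀ ∈ Y) ∧
      ∀ h : stabilizer G₀ a₀, (h : G₀) ∈ M → (σ h : G₀) • c₁ = c₁

variable (G₀) in
/-- the graph on the non-neighbours is determined -/
def U3 (a₀ b₀ c₀ : Ω₀) : Prop := ∀ T ⊆ Nb G₀ a₀ c₀ a₀, c₀ ∉ T →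
  (∀ g : G₀, g • a₀ = a₀ → g • c₀ = c₀ → ∀ z ∈ T, g • z ∈ T) →
  T.ncard = (Nb G₀ a₀ b₀ c₀ ∩ Nb G₀ a₀ c₀ a₀).ncard → T = Nb G₀ a₀ b₀ c₀ ∩ Nb G₀ a₀ c₀ a₀

theorem local_eq (r : Rk3 G a b c k l) (hd : ¬ k + 1 ∣ 1 + k + l) (u1 : U1 G₀ a₀ b₀ k l)
    (s : Same θ b₀ b) : pull θ b₀ b (Nb G a b b) = Nb G₀ a₀ b₀ b₀ ∩ Nb G₀ a₀ b₀ a₀ := by
  refine (u1 _ pull_subset (fun e => ?_) (fun g e e' => ?_) (Nb G a b b ∩ Nb G a c a).ncard
    (by rw [s.ncard_pull]; exact r.split_b) ⟨_, r.count⟩).resolve_left fun e => hd (r.dvd_of_clique e)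
  · have := (s.mem_pull (T := Nb G a b b) 1).1 (by simpa using e)
    exact r.irrefl b (by simpa using this)
  · exact s.pull_inv ⟨g, e⟩ fun z hz => (smul_mem_Nb_fix ((s ⟨g, e⟩).2 e')).2 hz

theorem mu_eq (r₀ : Rk3 G₀ a₀ b₀ c₀ k l) (r : Rk3 G a b c k l) (hd : ¬ k + 1 ∣ 1 + k + l)
    (u1 : U1 G₀ a₀ b₀ k l) (s : Same θ b₀ b) :
    (Nb G a b c ∩ Nb G a b a).ncard = (Nb G₀ a₀ b₀ c₀ ∩ Nb G₀ a₀ b₀ a₀).ncard := by
  have h1 := s.ncard_pull (Nb G a b b)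
  rw [local_eq r hd u1 s] at h1
  have h2 := r.split_b
  have h3 := r₀.split_b
  have h4 : (Nb G a b b ∩ Nb G a c a).ncard = (Nb G₀ a₀ b₀ b₀ ∩ Nb G₀ a₀ c₀ a₀).ncard := by omega
  have h5 := r.count
  rw [h4, r₀.count] at h5
  exact (Nat.eq_of_mul_eq_mul_left (by have := r.l1; omega) h5).symm

theorem rigid_of_same (r₀ : Rk3 G₀ a₀ b₀ c₀ k l) (r : Rk3 G a b c k l) (hd : ¬ k + 1 ∣ 1 + k + l)
    (u1 : U1 G₀ a₀ b₀ k l) (u3 : U3 G₀ a₀ b₀ c₀) (s : Same θ b₀ b) (s' : Same θ c₀ c)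
    (hY : ∀ h : stabilizer G₀ a₀, (θ h : G) • b ∈ Nb G a b c ↔ (h : G₀) • b₀ ∈ Nb G₀ a₀ b₀ c₀) :
    ∃ f : Ω₀ ≃ Ω, ∀ x y, f y ∈ Nb G a b (f x) ↔ y ∈ Nb G₀ a₀ b₀ x := by
  classical
  have := r.fin
  have := r₀.fin
  have sa : Same θ a₀ a := fun h => iff_of_true (θ h).2 h.2
  let f : Ω₀ → Ω := fun z => if z ∈ Nb G₀ a₀ b₀ a₀ then tr θ b₀ b z else
    if z ∈ Nb G₀ a₀ c₀ a₀ then tr θ c₀ c z else a
  have fa : f a₀ = a := by simp only [f, if_neg (r₀.irrefl a₀), if_neg (r₀.symm'.irrefl a₀)]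
  have fb : ∀ h : stabilizer G₀ a₀, f ((h : G₀) • b₀) = (θ h : G) • b := fun h => by
    simp only [f]
    rw [if_pos ⟨h, h.2, rfl⟩, s.tr_smul]
  have fc : ∀ h : stabilizer G₀ a₀, f ((h : G₀) • c₀) = (θ h : G) • c := fun h => by
    simp only [f]
    rw [if_neg (r₀.symm'.disj ⟨h, h.2, rfl⟩), if_pos ⟨h, h.2, rfl⟩, s'.tr_smul]
  have cov : ∀ z, z = a₀ ∨ (∃ h : stabilizer G₀ a₀, (h : G₀) • b₀ = z) ∨
      ∃ h : stabilizer G₀ a₀, (h : G₀) • c₀ = z := fun z =>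
    (r₀.cover a₀ z).imp_right (Or.imp (fun ⟨g, e, e'⟩ => ⟨⟨g, e⟩, e'⟩) fun ⟨g, e, e'⟩ => ⟨⟨g, e⟩, e'⟩)
  have fe : ∀ (h : stabilizer G₀ a₀) z, f ((h : G₀) • z) = (θ h : G) • f z := by
    intro h z
    rcases cov z with rfl | ⟨u, rfl⟩ | ⟨u, rfl⟩
    · rw [show (h : G₀) • z = z from h.2, fa, show (θ h : G) • a = a from (θ h).2]
    · rw [← mul_smul, ← Subgroup.coe_mul, fb, fb, map_mul, Subgroup.coe_mul, mul_smul]
    · rw [← mul_smul, ← Subgroup.coe_mul, fc, fc, map_mul, Subgroup.coe_mul, mul_smul]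
  have surj : Function.Surjective f := by
    intro y
    rcases r.cover a y with rfl | ⟨g, e, rfl⟩ | ⟨g, e, rfl⟩
    · exact ⟨a₀, fa⟩
    · exact ⟨_, (fb (θ.symm ⟨g, e⟩)).trans (by simp)⟩
    · exact ⟨_, (fc (θ.symm ⟨g, e⟩)).trans (by simp)⟩
  have bij : Function.Bijective f :=
    (Nat.bijective_iff_surjective_and_card f).2 ⟨surj, r₀.card.trans r.card.symm⟩
  have mb : ∀ h : stabilizer G₀ a₀, (θ h : G) • b ∈ Nb G a b a := fun h => ⟨_, (θ h).2, rfl⟩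
  have mc : ∀ h : stabilizer G₀ a₀, (θ h : G) • c ∈ Nb G a c a := fun h => ⟨_, (θ h).2, rfl⟩
  have mb₀ : ∀ h : stabilizer G₀ a₀, (h : G₀) • b₀ ∈ Nb G₀ a₀ b₀ a₀ := fun h => ⟨_, h.2, rfl⟩
  have mc₀ : ∀ h : stabilizer G₀ a₀, (h : G₀) • c₀ ∈ Nb G₀ a₀ c₀ a₀ := fun h => ⟨_, h.2, rfl⟩
  have ha : ∀ y, f y ∈ Nb G a b a ↔ y ∈ Nb G₀ a₀ b₀ a₀ := by
    intro y
    rcases cov y with rfl | ⟨u, rfl⟩ | ⟨u, rfl⟩
    · rw [fa]; exact iff_of_false (r.irrefl a) (r₀.irrefl _)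
    · rw [fb]; exact iff_of_true (mb u) (mb₀ u)
    · rw [fc]; exact iff_of_false (r.symm'.disj (mc u)) (r₀.symm'.disj (mc₀ u))
  have sy : ∀ x y, (f x ∈ Nb G a b (f y) ↔ x ∈ Nb G₀ a₀ b₀ y) →
      (f y ∈ Nb G a b (f x) ↔ y ∈ Nb G₀ a₀ b₀ x) := fun x y e =>
    ⟨fun h => r₀.symm (e.1 (r.symm h)), fun h => r.symm (e.2 (r₀.symm h))⟩
  have mv : ∀ (h : stabilizer G₀ a₀) x, (∀ y, f y ∈ Nb G a b (f x) ↔ y ∈ Nb G₀ a₀ b₀ x) →
      ∀ y, f y ∈ Nb G a b (f ((h : G₀) • x)) ↔ y ∈ Nb G₀ a₀ b₀ ((h : G₀) • x) := by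
    intro h x e y
    obtain ⟨y, rfl⟩ : ∃ z, (h : G₀) • z = y := ⟨(h : G₀)⁻¹ • y, smul_inv_smul _ _⟩
    rw [fe, fe, smul_mem_Nb_iff, smul_mem_Nb_iff, e]
  have fb1 : f b₀ = b := by simpa using fb 1
  have fc1 : f c₀ = c := by simpa using fc 1
  have hc : ∀ y, f y ∈ Nb G a b (f c₀) ↔ y ∈ Nb G₀ a₀ b₀ c₀ := by
    intro y
    rcases cov y with rfl | ⟨u, rfl⟩ | ⟨u, rfl⟩
    · exact sy _ _ (by rw [fa]; exact ha c₀)
    · rw [fb, fc1, hY]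
    · have h1 := u3 (pull θ c₀ c (Nb G a b c)) pull_subset (fun e => by
          have := (s'.mem_pull (T := Nb G a b c) 1).1 (by simpa using e)
          exact r.irrefl c (by simpa using this))
        (fun g e e' => s'.pull_inv ⟨g, e⟩ fun z hz => (smul_mem_Nb_fix ((s' ⟨g, e⟩).2 e')).2 hz) (by
          have h2 := r.split_c
          have h3 := r₀.split_c
          have h4 := mu_eq r₀ r hd u1 s
          rw [s'.ncard_pull]; omega)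
      rw [fc, fc1, ← s'.mem_pull, h1]
      exact and_iff_left (mc₀ u)
  have hb : ∀ y, f y ∈ Nb G a b (f b₀) ↔ y ∈ Nb G₀ a₀ b₀ b₀ := by
    intro y
    rcases cov y with rfl | ⟨u, rfl⟩ | ⟨u, rfl⟩
    · exact sy _ _ (by rw [fa]; exact ha b₀)
    · rw [fb, fb1, ← s.mem_pull, local_eq r hd u1 s]
      exact and_iff_left (mb₀ u)
    · exact sy _ _ (mv u c₀ hc b₀)
  refine ⟨Equiv.ofBijective f bij, fun x => ?_⟩
  show ∀ y, f y ∈ Nb G a b (f x) ↔ _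
  rcases cov x with rfl | ⟨u, rfl⟩ | ⟨u, rfl⟩
  · rw [fa]; exact ha
  · exact mv u b₀ hb
  · exact mv u c₀ hc

/-- **rigidity** -/
theorem rigid (r₀ : Rk3 G₀ a₀ b₀ c₀ k l) (r : Rk3 G a b c k l) (hd : ¬ k + 1 ∣ 1 + k + l)
    (u0 : U0 G₀ a₀ b₀ k) (u1 : U1 G₀ a₀ b₀ k l) (u2 : U2 G₀ a₀ b₀ c₀ l) (u3 : U3 G₀ a₀ b₀ c₀)
    (θ : stabilizer G₀ a₀ ≃* stabilizer G a) :
    ∃ f : Ω₀ ≃ Ω, ∀ x y, f y ∈ Nb G a b (f x) ↔ y ∈ Nb G₀ a₀ b₀ x := by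
  have := r.finG
  have := r₀.finG
  obtain ⟨b₁, hb₁, h1⟩ := u0 (pst θ b) pst_le (r.hb ▸ card_pst)
  have s1 := same_of_le h1 (by rw [Nb_congr hb₁, r₀.hb, r.hb])
  obtain ⟨u, hu, rfl⟩ := hb₁
  have s := Same.conj ⟨u, hu⟩ s1
  have hb' : (θ (⟨u, hu⟩ : stabilizer G₀ a₀)⁻¹ : G) • b ∈ Nb G a b a := ⟨_, (θ _).2, rfl⟩
  generalize (θ (⟨u, hu⟩ : stabilizer G₀ a₀)⁻¹ : G) • b = b' at s hb'
  have r' := r.congr hb'
  simp only [← Nb_congr hb']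
  obtain ⟨σ, hσ, c₁, hc₁, hY, hM⟩ := u2 (pst θ c) pst_le (r.hc ▸ card_pst) (pull θ b₀ b' (Nb G a b' c))
    pull_subset (fun g hg => s.pull_inv ⟨g, pst_le hg⟩ fun z hz =>
      (smul_mem_Nb_fix (mem_pst.1 hg)).2 hz) (by rw [s.ncard_pull, mu_eq r₀ r' hd u1 s])
  let θ' : stabilizer G₀ a₀ ≃* stabilizer G a := σ.symm.trans θ
  have e' : ∀ h, θ' (σ h) = θ h := fun h => by simp [θ']
  have t : Same θ' b₀ b' := fun h => by
    obtain ⟨h, rfl⟩ := σ.surjective h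
    rw [e', hσ, s]
  have t1 : Same θ' c₁ c := same_of_le (fun g hg => by
    obtain ⟨h, e⟩ := σ.surjective ⟨g, pst_le hg⟩
    have e2 : (σ h : G₀) = g := congrArg Subtype.val e
    subst e2
    exact hM h (mem_pst.2 (e' h ▸ mem_pst.1 hg))) (by rw [Nb_congr hc₁, r₀.hc, r.hc])
  obtain ⟨v, hv, rfl⟩ := hc₁
  refine rigid_of_same r₀ (r'.congr' ⟨_, (θ' _).2, rfl⟩) hd u1 u3 t (Same.conj ⟨v, hv⟩ t1) fun h => ?_
  obtain ⟨w, e⟩ := σ.surjective (⟨v, hv⟩ * h)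
  rw [← smul_mem_Nb_iff (θ' ⟨v, hv⟩ : G), ← smul_mem_Nb_iff v (y := (h : G₀) • b₀), map_inv,
    Subgroup.coe_inv, smul_inv_smul, ← mul_smul, ← Subgroup.coe_mul, ← map_mul, ← e, e', ← s.mem_pull, ← hY, e,
    Subgroup.coe_mul, mul_smul]

/-- the automorphism group of a graph given by its neighbourhoods -/
def autG (N : Ω₀ → Set Ω₀) : Subgroup (Equiv.Perm Ω₀) where
  carrier := {σ | ∀ x y, σ y ∈ N (σ x) ↔ y ∈ N x}
  one_mem' := fun _ _ => Iff.rfl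
  mul_mem' := fun {σ τ} h h' x y => (h (τ x) (τ y)).trans (h' x y)
  inv_mem' := fun {σ} h x y => by
    have := h (σ⁻¹ x) (σ⁻¹ y)
    simp only [Equiv.Perm.coe_inv, Equiv.apply_symm_apply] at this
    exact this.symm

theorem equiv_of_graph (r₀ : Rk3 G₀ a₀ b₀ c₀ k l) (r : Rk3 G a b c k l)
    (θ : stabilizer G₀ a₀ ≃* stabilizer G a) (f₀ : ∀ g : G₀, (∀ y : Ω₀, g • y = y) → g = 1)
    (f₁ : ∀ g : G, (∀ y : Ω, g • y = y) → g = 1) (h2 : ∀ N : Subgroup G₀, N.index ≠ 2)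
    (hA : Nat.card (autG (Nb G₀ a₀ b₀)) ≤ 2 * Nat.card G₀)
    (hf : ∃ f : Ω₀ ≃ Ω, ∀ x y, f y ∈ Nb G a b (f x) ↔ y ∈ Nb G₀ a₀ b₀ x) : Nonempty (G ≃* G₀) := by
  have := r.finG
  have := r₀.finG
  have := r₀.fin
  obtain ⟨f, hf⟩ := hf
  let ρ₀ : G₀ →* autG (Nb G₀ a₀ b₀) :=
    (toPermHom G₀ Ω₀).codRestrict _ fun g _ _ => smul_mem_Nb_iff g
  let ρ : G →* autG (Nb G₀ a₀ b₀) :=
    (f.symm.permCongrHom.toMonoidHom.comp (toPermHom G Ω)).codRestrict _ fun g x y => by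
      show f.symm (g • f y) ∈ Nb G₀ a₀ b₀ (f.symm (g • f x)) ↔ _
      rw [← hf, f.apply_symm_apply, f.apply_symm_apply, smul_mem_Nb_iff, hf]
  have i₀ : Function.Injective ρ₀ := (injective_iff_map_eq_one _).2 fun g e =>
    f₀ g fun y => congrArg (fun σ : autG (Nb G₀ a₀ b₀) => σ.1 y) e
  have i₁ : Function.Injective ρ := (injective_iff_map_eq_one _).2 fun g e =>
    f₁ g fun y => by
      have : f.symm (g • f (f.symm y)) = f.symm y :=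
        congrArg (fun σ : autG (Nb G₀ a₀ b₀) => σ.1 (f.symm y)) e
      simpa using this
  have c1 : Nat.card G = Nat.card G₀ := by rw [r.card_G, r₀.card_G, Nat.card_congr θ.toEquiv]
  have c2 : Nat.card ρ.range = Nat.card G₀ := (Nat.card_congr (MonoidHom.ofInjective i₁).toEquiv).symm.trans c1
  have c3 : Nat.card ρ₀.range = Nat.card G₀ := (Nat.card_congr (MonoidHom.ofInjective i₀).toEquiv).symm
  have c4 : ρ.range.index ≤ 2 := by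
    have := ρ.range.card_mul_index
    rw [c2] at this
    exact Nat.le_of_mul_le_mul_left (by rw [this, mul_comm]; exact hA) (Nat.card_pos (α := G₀))
  have c5 : (ρ.range.comap ρ₀).index ≤ 2 := by
    rw [Subgroup.index_comap]
    exact (Subgroup.relIndex_le_of_le_right le_top (by
      rw [Subgroup.relIndex_top_right]; exact Subgroup.index_ne_zero_of_finite)).trans
      (by rw [Subgroup.relIndex_top_right]; exact c4)
  have c6 : (ρ.range.comap ρ₀).index = 1 := by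
    have := h2 (ρ.range.comap ρ₀)
    have := Subgroup.index_ne_zero_of_finite (H := ρ.range.comap ρ₀)
    omega
  rw [Subgroup.index_eq_one] at c6
  have c7 : ρ₀.range = ρ.range := Subgroup.eq_of_le_of_card_ge
    (by rintro _ ⟨g, rfl⟩; exact (c6.ge (Subgroup.mem_top g) :)) (by rw [c2, c3])
  exact ⟨((MonoidHom.ofInjective i₁).trans (MulEquiv.subgroupCongr c7.symm)).trans
    (MonoidHom.ofInjective i₀).symm⟩

theorem rk3_of_perm {Ω : Type*} [Fintype Ω] (hΩ : Fintype.card Ω = 1 + k + l) (G : Subgroup (Equiv.Perm Ω))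
    [IsPretransitive G Ω] {a b c : Ω} (hb : (orbit (stabilizer G a) b).ncard = k)
    (hc : (orbit (stabilizer G a) c).ncard = l) (k1 : 1 < k) (l1 : 1 < l) (ne : k ≠ l) :
    Rk3 G a b c k l :=
  ⟨inferInstance, inferInstance, fun x => exists_smul_eq G a x, by rw [Nat.card_eq_fintype_card, hΩ],
    orbit_eq_Nb (G := G) a b ▸ hb, orbit_eq_Nb (G := G) a c ▸ hc, k1, l1, ne⟩

theorem faithful_perm {Ω : Type*} (G : Subgroup (Equiv.Perm Ω)) (g : G) (h : ∀ y : Ω, g • y = y) : g = 1 :=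
  Subtype.ext (Equiv.ext h)

theorem index_ne_two {G : Type*} [Group G] [IsSimpleGroup G] (h : Nat.card G ≠ 2) (N : Subgroup G) :
    N.index ≠ 2 := by
  intro e
  rcases (N.normal_of_index_eq_two e).eq_bot_or_eq_top with rfl | rfl
  · exact h (by rwa [Subgroup.index_bot] at e)
  · rw [Subgroup.index_top] at e; omega

theorem eqns_rigid : True := by
  have := @Same.eq_1.{0, 0, 0, 0}
  have := @pull.eq_1.{0, 0, 0, 0}
  have := @pst.eq_1.{0, 0, 0, 0}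
  have := @tr.eq_1.{0, 0, 0, 0}
  have := @U0.eq_1.{0, 0}
  have := @U1.eq_1.{0, 0}
  have := @U2.eq_1.{0, 0}
  have := @U3.eq_1.{0, 0}
  have := @autG.eq_1.{0}
  exact True.intro

end H19.R3
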