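import Cfsg.Agent.Lib.Rk19.Frob

/-! Points separated by their adjacencies, checked with an inverse table. -/

set_option autoImplicit false

namespace H19.R3

open H54

variable {Ω : Type*} {c : Cfg} {pt : ℕ → Ω} {N : Ω → Set Ω} {NB : ℕ → ℕ}

/-- the adjacencies of the point `i` -/
noncomputable def sig (c : Cfg) (L : List (ℕ × ℕ)) (i : ℕ) : ℕ :=
  List.rec (motive := fun _ => ℕ) 0 (fun e _ ih => Nat.add (Nat.mul ih 2) (sel (mb c e.2 i) 1 0)) L

theorem GM.autLe_sig (M : GM c pt N NB) {F : List ℕ} (inv : ℕ → ℕ)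
    (h : mapK NB F (fun L => allLt (fun i => Nat.beq (force (sig c L i) inv) i) c.n) = true) :
    AutLe c pt N F 1 := fun hF => by
  simp only [mapK_eq, allLt_iff, force_eq, Nat.beq_eq] at h
  have : fixG N pt F = ⊥ := eq_bot_iff.2 fun σ hσ => Equiv.ext fun y => by
    obtain ⟨i, hi, rfl⟩ := M.surj y
    obtain ⟨j, hj, e⟩ := M.surj (σ (pt i))
    have key : ∀ L : List ℕ, (∀ f ∈ L, f ∈ F) →
        sig c (L.map fun q => (q, NB q)) j = sig c (L.map fun q => (q, NB q)) i := fun L hL => by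
      induction L with
      | nil => rfl
      | cons f L ih =>
        rw [List.forall_mem_cons] at hL
        show sig c _ j * 2 + sel (mb c (NB f) j) 1 0 = sig c _ i * 2 + sel (mb c (NB f) i) 1 0
        rw [ih hL.2, Bool.eq_iff_iff.2 ((pt_mem M.X hj).symm.trans (Iff.trans ?_ (pt_mem M.X hi)))]
        rw [← M.nb f (hF f hL.1), e, ← hσ.1 (pt f) (pt i), hσ.2 f hL.1]
    rw [← e, ← h j hj, key F fun _ h => h, h i hi]; rfl
  rw [this, Subgroup.card_bot]

end H19.R3
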