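import Cfsg.Agent.Lib.Rk19.Frob

/-! Twisting by outer automorphisms of the point stabiliser; self-centralising elements. -/

set_option autoImplicit false

namespace H19.R3

open H54 MulAction
open scoped Pointwise

variable {G Ω : Type*} [Group G] [MulAction G Ω] {c : Cfg} {pt : ℕ → Ω} {pl nt NB : ℕ → ℕ} {lt : ℕ → G}

/-- a permutation normalising the action of `H` on `D` induces an automorphism -/
theorem exists_aut [Finite G] {H : Subgroup G} {S : Set G} (hS : Subgroup.closure S = H) {D : Set Ω}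
    (hi : ∀ h ∈ H, ∀ z ∈ D, h • z ∈ D) (hf : ∀ h ∈ H, (∀ z ∈ D, h • z = z) → h = 1) {π : Equiv.Perm Ω}
    (su : Set.SurjOn π D D) (hs : ∀ s ∈ S, ∃ w ∈ H, ∀ z ∈ D, π (s • z) = w • π z) :
    ∃ σ : MulAut H, ∀ h : H, ∀ z ∈ D, π ((h : G) • z) = (σ h : G) • π z := by
  have ex : ∀ h ∈ H, ∃ w ∈ H, ∀ z ∈ D, π (h • z) = w • π z := by
    subst hS
    intro h hh
    induction hh using Subgroup.closure_induction with
    | mem s h => exact hs s h
    | one => exact ⟨1, one_mem _, fun z _ => by simp⟩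
    | mul x y _ hy ex ey =>
      obtain ⟨u, hu, eu⟩ := ex
      obtain ⟨v, hv, ev⟩ := ey
      exact ⟨u * v, mul_mem hu hv, fun z hz => by rw [mul_smul, eu _ (hi y hy z hz), ev z hz, mul_smul]⟩
    | inv x hx ex =>
      obtain ⟨u, hu, eu⟩ := ex
      exact ⟨u⁻¹, inv_mem hu, fun z hz => by
        rw [eq_inv_smul_iff, ← eu _ (hi _ (inv_mem hx) z hz), smul_inv_smul]⟩
  choose f hf1 hf2 using ex
  let φ : H →* H := MonoidHom.mk' (fun h => ⟨f h h.2, hf1 _ _⟩) fun u v => Subtype.ext <|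
    eq_of_inv_mul_eq_one <| hf _ (mul_mem (inv_mem (hf1 _ _)) (mul_mem (hf1 _ _) (hf1 _ _))) fun z hz => by
      obtain ⟨z, hz', rfl⟩ := su hz
      show ((f _ _)⁻¹ * (f _ _ * f _ _)) • _ = _
      rw [mul_smul, inv_smul_eq_iff, mul_smul, ← hf2 _ _ z hz', ← hf2 _ _ z hz',
        ← hf2 _ _ _ (hi _ v.2 z hz'), Subgroup.coe_mul, mul_smul]
  have i : Function.Injective φ := (injective_iff_map_eq_one φ).2 fun u e => Subtype.ext <|
    hf _ u.2 fun z hz => π.injective (by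
      rw [hf2 _ u.2 z hz, show f u u.2 = 1 from congrArg Subtype.val e, one_smul])
  exact ⟨MulEquiv.ofBijective φ (Finite.injective_iff_bijective.1 i), fun h => hf2 _ h.2⟩

theorem C2.twist {a b d : Ω} {σ : MulAut (stabilizer G a)} {π : Equiv.Perm Ω}
    (e : ∀ h : stabilizer G a, ∀ z ∈ Nb G a b a, π ((h : G) • z) = (σ h : G) • π z) (hb : π b = b)
    (su : Set.SurjOn π (Nb G a b a) (Nb G a b a)) {Y Y' : Set Ω} (hY' : Y' ⊆ Nb G a b a)
    (hY : ∀ z ∈ Nb G a b a, π z ∈ Y' ↔ z ∈ Y) (h : ∀ K : Subgroup G, K ≤ stabilizer G a →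
      (∀ u ∈ K, ∀ z ∈ Y', u • z ∈ Y') → C2 G a b d K Y') {K : Subgroup G}
    (hi : ∀ u ∈ K, ∀ z ∈ Y, u • z ∈ Y) : C2 G a b d K Y := by
  obtain ⟨τ, h1, c₁, h2, h3, h4⟩ := h (((K.subgroupOf _).map σ.toMonoidHom).map (stabilizer G a).subtype)
    (Subgroup.map_subtype_le _) (by
      rintro _ ⟨_, ⟨u, hu, rfl⟩, rfl⟩ z hz
      obtain ⟨z, hz', rfl⟩ := su (hY' hz)
      exact e u z hz' ▸ (hY _ ((smul_mem_Nb_fix u.2).2 hz')).2 (hi _ hu z ((hY z hz').1 hz)))
  have e' : ∀ h : stabilizer G a, (σ h : G) • b = π ((h : G) • b) := fun h => by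
    rw [e h b (self_mem_Nb _ _), hb]
  exact ⟨σ.trans τ, fun h => (h1 (σ h)).trans (e' h ▸ π.injective.eq_iff' hb),
    c₁, h2, fun h => (h3 (σ h)).trans (e' h ▸ hY _ ⟨h, h.2, rfl⟩), fun h hh => h4 (σ h) ⟨_, ⟨h, hh, rfl⟩, rfl⟩⟩

variable (G) in
/-- the conclusion of `U2` for all the subgroups leaving `Y` invariant -/
def Gd (a b d : Ω) (l : ℕ) (Y : Set Ω) : Prop := ∀ K : Subgroup G, K ≤ stabilizer G a →
  Nat.card K * l = Nat.card (stabilizer G a) → (∀ u ∈ K, ∀ z ∈ Y, u • z ∈ Y) → C2 G a b d K Y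

noncomputable def beqB (p q : Bool) : Bool := band (bimp p q) (bimp q p)

theorem beqB_iff {p q : Bool} : beqB p q = true ↔ (p = true ↔ q = true) := by
  cases p <;> cases q <;> simp [beqB]

/-- the permutation `e.2.1` of the neighbours of `a` normalises the letters `L` and maps `e.1` to a good set -/
noncomputable def twOk (c : Cfg) (pl NB : ℕ → ℕ) (a b D : ℕ) (L : List ℕ)
    (e : ℕ × ℕ × (ℕ → List ℕ) × ℕ × List ℕ) : Bool :=
  force e.2.1 fun p => force (NB a) fun A => force (Nat.land (NB e.2.2.2.1) A) fun y =>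
    band (band (isPerm c p) (band (Nat.ble (Nat.succ b) c.n) (Nat.beq (c.get p b) b)))
      (band (band (goodAt c NB a D y e.2.2.2) (allL (fun l => fixL c pl [a] (e.2.2.1 l)) L))
        (allLt (fun i => bimp (mb c A i) (force (c.get p i) fun j => band (band (mb c A j) (beqB (mb c y j) (mb c e.1 i)))
          (allL (fun l => Nat.beq (c.get p (c.get (pl l) i)) (wl c pl (e.2.2.1 l) j)) L))) c.n))

theorem NM.gd_twist [Finite G] (M : NM c pt pl nt lt) {a b d D k l : ℕ} (g : GM c pt (Nb G (pt a) (pt b)) NB)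
    (r : Rk3 G (pt a) (pt b) (pt d) k l) (ha : a < c.n) (hD : Nb G (pt a) (pt d) (pt a) = SO c pt D) {L : List ℕ}
    (hL : gp lt L = stabilizer G (pt a))
    (hf : ∀ h ∈ stabilizer G (pt a), (∀ z ∈ Nb G (pt a) (pt b) (pt a), h • z = z) → h = 1)
    {e : ℕ × ℕ × (ℕ → List ℕ) × ℕ × List ℕ} (h : twOk c pl NB a b D L e = true) :
    Gd G (pt a) (pt b) (pt d) l (SO c pt e.1) := fun K _ _ hi => by
  simp only [twOk, force_eq, band_eq_true, allLt_iff, allL_iff, bimp_eq_true, Nat.beq_eq, Nat.ble_eq, beqB_iff] at h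
  obtain ⟨⟨h1, h2, h3⟩, ⟨h4, h5⟩, h6⟩ := h
  obtain ⟨π, rp⟩ := exists_perm_rep M.X h1
  have := M.finite
  have rp' : ∀ i, i < c.n → π (pt i) = pt (c.get e.2.1 i) := fun i hi => (rp i hi).2
  have su : Set.SurjOn π (Nb G (pt a) (pt b) (pt a)) (Nb G (pt a) (pt b) (pt a)) :=
    (((Set.toFinite _).injOn_iff_bijOn_of_mapsTo (by
      rw [g.nb a ha]
      rintro _ ⟨i, hi, e, rfl⟩
      exact ⟨_, (rp i hi).1, (h6 i hi e).1.1, (rp' i hi).symm⟩)).1 π.injective.injOn).surjOn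
  obtain ⟨σ, hσ⟩ := exists_aut hL (fun h hh z hz => (smul_mem_Nb_fix hh).2 hz) hf su (by
    rintro _ ⟨l, hl, rfl⟩
    refine ⟨lw lt (e.2.2.1 l), lw_mem fun x hx => M.fix (h5 l hl) List.mem_cons_self hx, ?_⟩
    rw [g.nb a ha]
    rintro _ ⟨i, hi, e, rfl⟩
    rw [(M.rep l i hi).2, rp' _ (M.rep l i hi).1, rp' i hi, lw_smul M.rep _ (rp i hi).1, (h6 i hi e).2 l hl])
  refine C2.twist hσ (by rw [rp' b h2, h3]) su (by rw [SO_land M.X, ← g.nb a ha]; exact Set.inter_subset_right) ?_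
    (fun K hK hi => g.c2 r ha hD hK hi h4) hi
  rw [g.nb a ha]
  rintro _ ⟨i, hi, e, rfl⟩
  rw [rp' i hi, pt_mem M.X (rp i hi).1, pt_mem M.X hi, (h6 i hi e).1.2]

/-- a walk without choices finds more than `k` images of `e.1` -/
noncomputable def bigAt (c : Cfg) (nt : ℕ → ℕ) (S ws : List ℕ) (m k : ℕ) (e : ℕ × ℕ) : Bool :=
  force (nz c e.1) fun x => band (band (Nat.ble (Nat.succ k) e.2) (Nat.beq (plane c 0 x) (plane c 0 e.1)))
    (orbCheckL (actW c nt fun l => [l]) (fun a => Nat.mod (plane c 0 a) m) (fun _ => 0) S 64 ws S x e.2 0)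

theorem NM.bigAt [Finite G] (M : NM c pt pl nt lt) {H : Subgroup G} {S ws : List ℕ} (hS : ∀ j ∈ S, lt j ∈ H)
    {m k : ℕ} {e : ℕ × ℕ} (h : bigAt c nt S ws m k e = true) : Big G c pt H k e.1 := fun K hK hk hi => by
  classical
  simp only [R3.bigAt, force_eq, band_eq_true, Nat.ble_eq, Nat.beq_eq] at h
  have := M.finite
  rw [← (plane_eq M.X).1 h.1.2] at hi
  have hS' : ∀ j ∈ S, In c pt H (netL c nt [j] c.one) := fun j hj => ⟨_, by simpa [lw] using hS j hj, M.repL [j]⟩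
  have h1 := ((objSpec_W M.X fun l => [l]).cover (h := (Nat.mod · m)) le_rfl hS' hS' trivial (walk_of_check h.2)).1
  have := (le_ncard_of_le_encard (Set.toFinite _) h1).trans (orbit_le_index hK hk (stab_of_inv M.X hi))
  omega

theorem NM.c2_of (M : NM c pt pl nt lt) {a b d l μ : ℕ} (g : GM c pt (Nb G (pt a) (pt b)) NB) (ha : a < c.n)
    {w R Bs : List ℕ} (hB : ∀ y ∈ Bs, Gd G (pt a) (pt b) (pt d) l (SO c pt y))
    (h : selOk c nt w R (NB a) (p2 c NB a 0 μ Bs []) = true) {K : Subgroup G} (hK : K ≤ stabilizer G (pt a))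
    (hk : Nat.card K * l = Nat.card (stabilizer G (pt a))) (hw : ∀ l ∈ w, lt l ∈ K) {Y : Set Ω}
    (hY : Y ⊆ Nb G (pt a) (pt b) (pt a)) (hi : ∀ u ∈ K, ∀ z ∈ Y, u • z ∈ Y) (hc : Y.ncard = μ) :
    C2 G (pt a) (pt b) (pt d) K Y := by
  obtain ⟨y, rfl, h⟩ := M.sel h hw hi (g.nb a ha ▸ hY)
  simp only [p2, bor_eq_true, nb_eq_true, Nat.beq_eq, anyL_iff, M.pc_eq] at h
  rcases h with h | ⟨z, hz, rfl⟩ | ⟨e, h, -⟩
  exacts [absurd hc h, hB y hz K hK hk hi, absurd h List.not_mem_nil]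

/-- the letter `z` fixes only `a` and `d`; `x` is the set of the points which it moves to a neighbour -/
noncomputable def centOk (c : Cfg) (pl NB : ℕ → ℕ) (a d z x : ℕ) : Bool :=
  band (fixL c pl [a, d] [z]) (allLt (fun i => force (c.get (pl z) i) fun j =>
    band (bimp (Nat.beq j i) (bor (Nat.beq i a) (Nat.beq i d))) (beqB (mb c x i) (mb c (NB i) j))) c.n)

theorem NM.cent [Finite G] [DecidableEq Ω] (M : NM c pt pl nt lt) {a b d z x N L : ℕ}
    (g : GM c pt (Nb G (pt a) (pt b)) NB) (hf : centOk c pl NB a d z x = true) {S : List ℕ}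
    (hS : fixL c pl [a, d] S = true) {h : ℕ → ℕ} {t : ℕ} (ht : t ∈ S)
    (w : Walk (setObj c pt 0) (actW c nt fun l => [l]) (fun a => h (plane c 0 a)) S [t] x N)
    (hL : orderOf (lt z) = L) (hN : Nat.card (stabilizer G (pt a) ⊓ stabilizer G (pt d) : Subgroup G) ≤ L * N) :
    ∀ u ∈ stabilizer G (pt a), u * lt z = lt z * u → ∃ i : ℕ, u = lt z ^ i := fun u hu e => by
  simp only [centOk, band_eq_true, allLt_iff, force_eq, bimp_eq_true, bor_eq_true, Nat.beq_eq, beqB_iff] at hf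
  have h0 : ∀ {S : List ℕ}, fixL c pl [a, d] S = true → ∀ j ∈ S,
      lt j ∈ stabilizer G (pt a) ⊓ stabilizer G (pt d) := fun h j hj =>
    ⟨M.fix h List.mem_cons_self hj, M.fix h (by simp) hj⟩
  have h1 : Subgroup.centralizer {lt z} ≤ stabilizer G (setObj c pt 0 x) := stab_of_inv M.X fun v hv y hy => by
    have key : ∀ y, y ∈ SO c pt x ↔ lt z • y ∈ Nb G (pt a) (pt b) y := fun y => by
      obtain ⟨i, hi, rfl⟩ := M.surj y
      rw [pt_mem M.X hi, (hf.2 i hi).2, (M.rep z i hi).2, g.nb i hi, pt_mem M.X (M.rep z i hi).1]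
    rw [key, ← mul_smul, ← Subgroup.mem_centralizer_singleton_iff.1 hv, mul_smul, smul_mem_Nb_iff, ← key]
    exact hy
  have hz := h0 hf.1 z List.mem_cons_self
  have h2 := (M.dcover (W := fun l => [l]) (J := Subgroup.zpowers (lt z)) le_rfl
    (fun j hj => by simpa [lw] using h0 hS j hj) (fun j hj => by simpa [lw, List.mem_singleton.1 hj] using h0 hS t ht) w
    (Subgroup.zpowers_le.2 hz) ((Subgroup.zpowers_le.2 (Subgroup.mem_centralizer_singleton_iff.2 rfl)).trans h1)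
    (by rw [Nat.card_zpowers, hL]) hN).1
  obtain ⟨j, hj, e1⟩ := M.surj (u • pt d)
  have h3 : lt z • pt j = pt j := by rw [e1, ← mul_smul, ← e, mul_smul, show lt z • pt d = _ from hz.2]
  have h4 : u • pt d = pt d := by
    rcases (hf.2 j hj).1 (M.X.inj _ _ (M.rep z j hj).1 hj ((M.rep z j hj).2.symm.trans h3)) with rfl | rfl
    · exact e1.symm.trans (MulAction.injective u ((show u • pt j = _ from hu).trans e1))
    · exact e1.symm
  obtain ⟨i, hi⟩ := mem_powers_iff_mem_zpowers.2 (h2.le ⟨⟨hu, h4⟩, h1 (Subgroup.mem_centralizer_singleton_iff.2 e)⟩)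
  exact ⟨i, hi.symm⟩

theorem eqns_twist : True := by
  have := @Gd.eq_1.{0, 0}
  have := @beqB.eq_1
  have := @twOk.eq_1
  have := @bigAt.eq_1
  have := @centOk.eq_1
  exact True.intro

end H19.R3
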